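import Cfsg.Agent.Lib.Helper14.PSeries
import Cfsg.Agent.Lib.Helper28.Radical

set_option autoImplicit false
set_option linter.style.haveILetI false

namespace Cfsg.Agent.Lib.Helper66

open Cfsg Subgroup
open Cfsg.Agent.Lib.Helper14

section

variable {G : Type*} [Group G] {p : ℕ}

/-- notation-free shorthand for the terms of the upper `p`-series. -/
abbrev ups (p : ℕ) (G : Type*) [Group G] (j : ℕ) : Subgroup G := (upperPSeries p G j).1

theorem ups_zero : ups p G 0 = ⊥ := rfl

theorem ups_le_succ (j : ℕ) : ups p G j ≤ ups p G (j + 1) := upperPSeries_le_succ p G j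

theorem ups_mono {i j : ℕ} (h : i ≤ j) : ups p G i ≤ ups p G j := upperPSeries_mono p G h

theorem ups_relIndex_even [Finite G] {j : ℕ} (hj : Even j) :
    ((ups p G j).relIndex (ups p G (j + 1))).Coprime p := by
  show ((upperPSeries p G j).1.relIndex (upperPSeries p G (j + 1)).1).Coprime p
  rw [upperPSeries_succ_of_even p G hj, relIndex_comap_mk']
  exact card_pPrimeCore_coprime

theorem ups_relIndex_odd [Finite G] [Fact p.Prime] {j : ℕ} (hj : ¬ Even j) :
    ∃ m : ℕ, (ups p G j).relIndex (ups p G (j + 1)) = p ^ m := by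
  show ∃ m : ℕ, (upperPSeries p G j).1.relIndex (upperPSeries p G (j + 1)).1 = p ^ m
  rw [upperPSeries_succ_of_not_even p G hj, relIndex_comap_mk']
  exact IsPGroup.iff_card.1 isPGroup_pCore

/-- a `p'`-step above something inside an even term stays inside the next term. -/
theorem le_ups_succ_of_even {j : ℕ} (hj : Even j) {X Y : Subgroup G} (hY : Y.Normal)
    (hX : X ≤ ups p G j) (hc : (X.relIndex Y).Coprime p) : Y ≤ ups p G (j + 1) := by
  show Y ≤ (upperPSeries p G (j + 1)).1
  rw [upperPSeries_succ_of_even p G hj]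
  apply le_comap_pPrimeCore _ hY
  exact Nat.Coprime.of_dvd_left (relIndex_dvd_of_le_left Y hX) hc

/-- a `p`-step above something inside an odd term stays inside the next term. -/
theorem le_ups_succ_of_odd [Finite G] [hp : Fact p.Prime] {j : ℕ} (hj : ¬ Even j)
    {X Y : Subgroup G} (hY : Y.Normal) (hX : X ≤ ups p G j) {m : ℕ}
    (hc : X.relIndex Y ∣ p ^ m) : Y ≤ ups p G (j + 1) := by
  show Y ≤ (upperPSeries p G (j + 1)).1
  rw [upperPSeries_succ_of_not_even p G hj]
  obtain ⟨m', -, hm'⟩ := (Nat.dvd_prime_pow hp.out).1 ((relIndex_dvd_of_le_left Y hX).trans hc)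
  exact le_comap_pCore _ hY hm'

theorem pLengthLE_iff {k : ℕ} : PLengthLE p k G ↔ ups p G (2 * k + 1) = ⊤ := Iff.rfl

theorem PLengthLE_mono {k k' : ℕ} (h : PLengthLE p k G) (hk : k ≤ k') : PLengthLE p k' G := by
  rw [pLengthLE_iff] at h ⊢
  rw [eq_top_iff, ← h]
  exact ups_mono (by omega)

/-- a `p'`-group has `p`-length `0`. -/
theorem pLengthLE_zero_of_coprime (h : (Nat.card G).Coprime p) : PLengthLE p 0 G := by
  rw [pLengthLE_iff, eq_top_iff]
  apply le_ups_succ_of_even (X := ⊥) (by simp) inferInstance bot_le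
  rw [relIndex_bot_left, card_top]; exact h

end

section Maps

variable {G : Type*} [Group G] {G' : Type*} [Group G'] {p : ℕ}

theorem map_ups_le [Finite G] [Finite G'] [hp : Fact p.Prime] (f : G →* G')
    (hf : Function.Surjective f) (j : ℕ) : (ups p G j).map f ≤ ups p G' j := by
  induction j with
  | zero => rw [ups_zero, Subgroup.map_bot]; exact bot_le
  | succ j ih =>
    have hn : ((ups p G (j + 1)).map f).Normal := Normal.map inferInstance f hf
    have hd := relIndex_map_map_dvd f (ups_le_succ (p := p) (G := G) j)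
    by_cases hj : Even j
    · exact le_ups_succ_of_even hj hn ih (Nat.Coprime.of_dvd_left hd (ups_relIndex_even hj))
    · obtain ⟨m, hm⟩ := ups_relIndex_odd (p := p) (G := G) hj
      exact le_ups_succ_of_odd hj hn ih (hm ▸ hd)

theorem pLengthLE_of_surjective [Finite G] [Finite G'] [Fact p.Prime] (f : G →* G')
    (hf : Function.Surjective f) {k : ℕ} (h : PLengthLE p k G) : PLengthLE p k G' := by
  rw [pLengthLE_iff] at h ⊢
  rw [eq_top_iff, ← map_top_of_surjective f hf, ← h]
  exact map_ups_le f hf _

theorem pLengthLE_of_equiv [Finite G] [Finite G'] [Fact p.Prime] (e : G ≃* G') {k : ℕ}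
    (h : PLengthLE p k G) : PLengthLE p k G' :=
  pLengthLE_of_surjective e.toMonoidHom e.surjective h

theorem ups_characteristic [Finite G] [Fact p.Prime] (j : ℕ) : (ups p G j).Characteristic :=
  characteristic_iff_map_le.2 (fun φ => map_ups_le φ.toMonoidHom φ.surjective j)

theorem ups_subgroupOf_le [Finite G] [hp : Fact p.Prime] (H : Subgroup G) (j : ℕ) :
    (ups p G j).subgroupOf H ≤ ups p H j := by
  induction j with
  | zero => rw [ups_zero, bot_subgroupOf]; exact bot_le
  | succ j ih =>
    have hn : ((ups p G (j + 1)).subgroupOf H).Normal := normal_subgroupOf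
    have hd : ((ups p G j).subgroupOf H).relIndex ((ups p G (j + 1)).subgroupOf H) ∣
        (ups p G j).relIndex (ups p G (j + 1)) := by
      rw [subgroupOf, relIndex_comap, subgroupOf_map_subtype]
      exact relIndex_dvd_relIndex_of_le_of_normal _ (ups_le_succ j) inf_le_left
    by_cases hj : Even j
    · exact le_ups_succ_of_even hj hn ih (Nat.Coprime.of_dvd_left hd (ups_relIndex_even hj))
    · obtain ⟨m, hm⟩ := ups_relIndex_odd (p := p) (G := G) hj
      exact le_ups_succ_of_odd hj hn ih (hm ▸ hd)

theorem pLengthLE_subgroup [Finite G] [Fact p.Prime] (H : Subgroup G) {k : ℕ}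
    (h : PLengthLE p k G) : PLengthLE p k H := by
  rw [pLengthLE_iff] at h ⊢
  rw [eq_top_iff]
  refine le_trans ?_ (ups_subgroupOf_le H _)
  rw [h, top_subgroupOf]

/-- Passing to the quotient by `O_{p',p}` lowers the `p`-length by one. -/
theorem map_ups_add_two_le [Finite G] [hp : Fact p.Prime] (j : ℕ) :
    (ups p G (j + 2)).map (QuotientGroup.mk' (ups p G 2)) ≤ ups p (G ⧸ ups p G 2) j := by
  induction j with
  | zero => rw [zero_add, QuotientGroup.map_mk'_self]; exact bot_le
  | succ j ih =>
    have hn : ((ups p G (j + 1 + 2)).map (QuotientGroup.mk' (ups p G 2))).Normal :=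
      Normal.map inferInstance _ (QuotientGroup.mk'_surjective _)
    have hd := relIndex_map_map_dvd (QuotientGroup.mk' (ups p G 2))
      (ups_le_succ (p := p) (G := G) (j + 2))
    by_cases hj : Even j
    · have hj2 : Even (j + 2) := hj.add (by decide)
      exact le_ups_succ_of_even hj hn ih (Nat.Coprime.of_dvd_left hd (ups_relIndex_even hj2))
    · have hj2 : ¬ Even (j + 2) := by
        intro h; apply hj
        rw [Nat.even_add] at h
        exact h.2 (by decide)
      obtain ⟨m, hm⟩ := ups_relIndex_odd (p := p) (G := G) hj2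
      exact le_ups_succ_of_odd hj hn ih (hm ▸ hd)

theorem pLengthLE_quotient_ups_two [Finite G] [Fact p.Prime] {k : ℕ}
    (h : PLengthLE p (k + 1) G) : PLengthLE p k (G ⧸ ups p G 2) := by
  rw [pLengthLE_iff] at h ⊢
  rw [eq_top_iff, ← map_top_of_surjective _ (QuotientGroup.mk'_surjective (ups p G 2)), ← h]
  exact map_ups_add_two_le (2 * k + 1)

theorem map_subtype_ups_le [Finite G] [hp : Fact p.Prime] (N : Subgroup G) [hN : N.Normal]
    (j : ℕ) : (ups p N j).map N.subtype ≤ ups p G j := by
  induction j with
  | zero => rw [ups_zero, Subgroup.map_bot]; exact bot_le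
  | succ j ih =>
    have hn : ((ups p N (j + 1)).map N.subtype).Normal :=
      Cfsg.Agent.Lib.Helper28.map_subtype_normal_of_characteristic hN (ups_characteristic _)
    have hd := relIndex_map_map_of_injective (ups p N j) (ups p N (j + 1)) N.subtype_injective
    by_cases hj : Even j
    · exact le_ups_succ_of_even hj hn ih (hd ▸ ups_relIndex_even hj)
    · obtain ⟨m, hm⟩ := ups_relIndex_odd (p := p) (G := N) hj
      exact le_ups_succ_of_odd (m := m) hj hn ih (by rw [hd, hm])

/-- `p`-length is subadditive in extensions. -/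
theorem pLengthLE_extension [Finite G] [hp : Fact p.Prime] (N : Subgroup G) [hN : N.Normal]
    {a b : ℕ} (hNa : PLengthLE p a N) (hQ : PLengthLE p b (G ⧸ N)) : PLengthLE p (a + b) G := by
  rw [pLengthLE_iff] at hNa hQ ⊢
  have hsurj := QuotientGroup.mk'_surjective N
  have key : ∀ j : ℕ, (ups p (G ⧸ N) (j + 1)).comap (QuotientGroup.mk' N)
      ≤ ups p G (2 * a + j + 1) := by
    intro j
    induction j with
    | zero =>
      have hle1 : (ups p N (2 * a)).map N.subtype ≤ N := map_subtype_le _
      have hle2 : N ≤ (ups p (G ⧸ N) (0 + 1)).comap (QuotientGroup.mk' N) := le_comap_mk' N _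
      apply le_ups_succ_of_even (j := 2 * a) (X := (ups p N (2 * a)).map N.subtype) (by simp)
        (Normal.comap inferInstance _) (map_subtype_ups_le N _)
      rw [← relIndex_mul_relIndex _ _ _ hle1 hle2]
      apply Nat.Coprime.mul_left
      · have h1 := relIndex_map_map_of_injective (ups p N (2 * a)) (ups p N (2 * a + 1))
          N.subtype_injective
        rw [hNa, ← MonoidHom.range_eq_map, range_subtype] at h1
        rw [h1, ← hNa]
        exact ups_relIndex_even (by simp)
      · rw [relIndex_comap_mk']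
        have h2 := ups_relIndex_even (p := p) (G := G ⧸ N) (j := 0) (by simp)
        rwa [ups_zero, relIndex_bot_left] at h2
    | succ j ih =>
      have hn : ((ups p (G ⧸ N) (j + 1 + 1)).comap (QuotientGroup.mk' N)).Normal :=
        Normal.comap inferInstance _
      have hd : ((ups p (G ⧸ N) (j + 1)).comap (QuotientGroup.mk' N)).relIndex
          ((ups p (G ⧸ N) (j + 1 + 1)).comap (QuotientGroup.mk' N))
          = (ups p (G ⧸ N) (j + 1)).relIndex (ups p (G ⧸ N) (j + 1 + 1)) := by
        rw [relIndex_comap, map_comap_eq_self_of_surjective hsurj]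
      by_cases hj : Even (j + 1)
      · have hj2 : Even (2 * a + j + 1) := by
          rw [add_assoc]; exact (even_two_mul a).add hj
        exact le_ups_succ_of_even hj2 hn ih (hd ▸ ups_relIndex_even hj)
      · have hj2 : ¬ Even (2 * a + j + 1) := by
          intro h; apply hj
          rw [add_assoc, Nat.even_add] at h
          exact h.1 (even_two_mul a)
        obtain ⟨m, hm⟩ := ups_relIndex_odd (p := p) (G := G ⧸ N) hj
        exact le_ups_succ_of_odd (m := m) hj2 hn ih (by rw [hd, hm])
  have h := key (2 * b)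
  rw [hQ, comap_top] at h
  rw [eq_top_iff]
  have e : 2 * (a + b) + 1 = 2 * a + 2 * b + 1 := by ring
  rw [e]; exact h

end Maps

end Cfsg.Agent.Lib.Helper66
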