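import Cfsg.Prelude.Def_OddOrderLocal
import Cfsg.Agent.Lib.Helper30.Coprime
import Cfsg.Agent.Lib.Lead.Hall
import Cfsg.Agent.Lib.Helper1.Hall

set_option autoImplicit false
set_option linter.style.haveILetI false

namespace Cfsg.Agent.Lib.Helper66

open Subgroup Cfsg
open Cfsg.Agent.Lib.Helper30
open scoped Pointwise

universe u

/-- `n` is a `π`-number. -/
def PiNum (π : Set ℕ) (n : ℕ) : Prop := ∀ p : ℕ, p.Prime → p ∣ n → p ∈ π

/-- `n` is a `π'`-number. -/
def PiNum' (π : Set ℕ) (n : ℕ) : Prop := ∀ p : ℕ, p.Prime → p ∈ π → ¬ p ∣ n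

section Num

variable {π : Set ℕ}

theorem PiNum.coprime {m n : ℕ} (hm : PiNum π m) (hn : PiNum' π n) : m.Coprime n :=
  Nat.coprime_of_dvd (fun k hk hkm hkn => hn k hk (hm k hk hkm) hkn)

theorem PiNum.of_dvd {m n : ℕ} (hn : PiNum π n) (h : m ∣ n) : PiNum π m :=
  fun p hp hpm => hn p hp (hpm.trans h)

theorem PiNum'.of_dvd {m n : ℕ} (hn : PiNum' π n) (h : m ∣ n) : PiNum' π m :=
  fun p hp hpπ hpm => hn p hp hpπ (hpm.trans h)

theorem PiNum.mul {m n : ℕ} (hm : PiNum π m) (hn : PiNum π n) : PiNum π (m * n) := by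
  intro p hp h
  rcases (Nat.Prime.dvd_mul hp).1 h with h | h
  · exact hm p hp h
  · exact hn p hp h

theorem PiNum'.mul {m n : ℕ} (hm : PiNum' π m) (hn : PiNum' π n) : PiNum' π (m * n) := by
  intro p hp hpπ h
  rcases (Nat.Prime.dvd_mul hp).1 h with h | h
  · exact hm p hp hpπ h
  · exact hn p hp hpπ h

theorem piNum_one : PiNum π 1 := fun _ hp h => absurd (Nat.dvd_one.1 h) hp.one_lt.ne'

theorem piNum'_one : PiNum' π 1 := fun _ hp _ h => absurd (Nat.dvd_one.1 h) hp.one_lt.ne'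

theorem piNum_prime_pow {p : ℕ} (hp : p.Prime) (hpπ : p ∈ π) (k : ℕ) : PiNum π (p ^ k) := by
  intro q hq h
  have := (Nat.prime_dvd_prime_iff_eq hq hp).1 (hq.dvd_of_dvd_pow h)
  rw [this]; exact hpπ

theorem piNum'_prime_pow {p : ℕ} (hp : p.Prime) (hpπ : p ∉ π) (k : ℕ) : PiNum' π (p ^ k) := by
  intro q hq hqπ h
  have := (Nat.prime_dvd_prime_iff_eq hq hp).1 (hq.dvd_of_dvd_pow h)
  rw [this] at hqπ; exact hpπ hqπ

theorem exists_pi_factorization (π : Set ℕ) (N : ℕ) (hN : N ≠ 0) :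
    ∃ m n : ℕ, N = m * n ∧ PiNum π m ∧ PiNum' π n := by
  classical
  induction N using Nat.recOnMul with
  | zero => exact absurd rfl hN
  | one => exact ⟨1, 1, rfl, piNum_one, piNum'_one⟩
  | prime p hp =>
    by_cases h : p ∈ π
    · exact ⟨p, 1, (mul_one p).symm, by simpa using piNum_prime_pow hp h 1, piNum'_one⟩
    · exact ⟨1, p, (one_mul p).symm, piNum_one, by simpa using piNum'_prime_pow hp h 1⟩
  | mul a b iha ihb =>
    obtain ⟨m₁, n₁, e₁, h₁, h₁'⟩ := iha (fun h => hN (by rw [h, zero_mul]))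
    obtain ⟨m₂, n₂, e₂, h₂, h₂'⟩ := ihb (fun h => hN (by rw [h, mul_zero]))
    exact ⟨m₁ * m₂, n₁ * n₂, by rw [e₁, e₂]; ring, h₁.mul h₂, h₁'.mul h₂'⟩

theorem pi_factorization_unique {m₁ n₁ m₂ n₂ : ℕ} (h : m₁ * n₁ = m₂ * n₂) (hm₁ : PiNum π m₁)
    (hn₁ : PiNum' π n₁) (hm₂ : PiNum π m₂) (hn₂ : PiNum' π n₂) : m₁ = m₂ := by
  apply Nat.dvd_antisymm
  · exact (hm₁.coprime hn₂).dvd_of_dvd_mul_right (h ▸ Dvd.intro _ rfl)
  · exact (hm₂.coprime hn₁).dvd_of_dvd_mul_right (h ▸ Dvd.intro _ rfl)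

end Num

section Basic

variable {X : Type u} [Group X] {π : Set ℕ}

theorem isPiHallOf_iff {H G : Subgroup X} :
    IsPiHallOf π H G ↔ H ≤ G ∧ PiNum π (Nat.card H) ∧ PiNum' π (H.relIndex G) := Iff.rfl

theorem isPiHallOf_card_eq [Finite X] {H₁ H₂ G : Subgroup X} (h₁ : IsPiHallOf π H₁ G)
    (h₂ : IsPiHallOf π H₂ G) : Nat.card H₁ = Nat.card H₂ :=
  pi_factorization_unique
    ((card_eq_card_mul_relIndex h₁.1).symm.trans (card_eq_card_mul_relIndex h₂.1))
    h₁.2.1 h₁.2.2 h₂.2.1 h₂.2.2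

theorem isPiHallOf_cj {H G : Subgroup X} (h : IsPiHallOf π H G) (g : X) :
    IsPiHallOf π (cj g H) (cj g G) :=
  ⟨cj_mono g h.1, by rw [card_cj]; exact h.2.1, by rw [relIndex_cj]; exact h.2.2⟩

theorem exists_isPiHallOf [Finite X] (π : Set ℕ) (G : Subgroup X) (hs : Group.IsSolvable G) :
    ∃ H, IsPiHallOf π H G := by
  obtain ⟨m, n, e, hm, hn⟩ := exists_pi_factorization π (Nat.card G) Nat.card_pos.ne'
  obtain ⟨H', hH'⟩ := Cfsg.Agent.Lib.Lead.hall_exists (G := G) m n e (hm.coprime hn)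
  have hle : H'.map G.subtype ≤ G := map_subtype_le H'
  have hc : Nat.card (H'.map G.subtype) = m := by
    rw [card_map_of_injective G.subtype_injective, hH']
  refine ⟨H'.map G.subtype, hle, by rw [hc]; exact hm, ?_⟩
  have h1 := card_eq_card_mul_relIndex hle
  rw [hc, e] at h1
  have hm0 : 0 < m := Nat.pos_of_ne_zero (fun h => by
    rw [h, zero_mul] at e; exact Nat.card_pos.ne' e)
  rw [← Nat.eq_of_mul_eq_mul_left hm0 h1]
  exact hn

theorem isPiHallOf_exists_conj [Finite X] {H₁ H₂ G : Subgroup X} (hs : Group.IsSolvable G)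
    (h₁ : IsPiHallOf π H₁ G) (h₂ : IsPiHallOf π H₂ G) : ∃ g ∈ G, H₂ = Helper30.cj g H₁ := by
  obtain ⟨g, hg⟩ := Cfsg.Agent.Lib.Lead.hall_conj (G := G) (Nat.card H₁) (H₁.relIndex G)
    (card_eq_card_mul_relIndex h₁.1) (PiNum.coprime h₁.2.1 h₁.2.2)
    (H₁.subgroupOf G) (H₂.subgroupOf G) (card_subgroupOf h₁.1)
    ((card_subgroupOf h₂.1).trans (isPiHallOf_card_eq h₂ h₁))
  exact ⟨g, g.2, eq_cj_of_subgroupOf h₁.1 h₂.1 g hg⟩

/-- Coprime action: existence of an invariant Hall subgroup. -/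
theorem exists_invariant_isPiHallOf [Finite X] {A G : Subgroup X}
    (hAG : A ≤ normalizer (G : Set X)) (hcop : (Nat.card A).Coprime (Nat.card G))
    (hs : Group.IsSolvable G) (π : Set ℕ) :
    ∃ H, IsPiHallOf π H G ∧ A ≤ normalizer (H : Set X) := by
  obtain ⟨P, hP⟩ := exists_isPiHallOf π G hs
  let _ := conjAct X
  obtain ⟨k, hk, h⟩ := glauberman_exists hAG hcop (Or.inr hs) P (by
    intro a ha
    have h1 := isPiHallOf_cj hP a
    rw [cj_eq_of_mem_normalizer (hAG ha)] at h1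
    obtain ⟨k, hk, hkP⟩ := isPiHallOf_exists_conj hs hP h1
    exact ⟨k, hk, hkP⟩)
  refine ⟨Helper30.cj k P, ?_, ?_⟩
  · have h1 := isPiHallOf_cj hP k
    rwa [cj_eq_of_mem hk] at h1
  · intro a ha
    exact mem_normalizer_of_cj_eq (h a ha)

/-- Coprime action: invariant Hall subgroups are conjugate under the centralizer. -/
theorem invariant_isPiHallOf_conj [Finite X] {A G : Subgroup X}
    (hAG : A ≤ normalizer (G : Set X)) (hcop : (Nat.card A).Coprime (Nat.card G))
    (hs : Group.IsSolvable G) {P Q : Subgroup X} (hP : IsPiHallOf π P G) (hQ : IsPiHallOf π Q G)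
    (hPA : A ≤ normalizer (P : Set X)) (hQA : A ≤ normalizer (Q : Set X)) :
    ∃ c ∈ G ⊓ centralizer (A : Set X), Q = Helper30.cj c P := by
  obtain ⟨k, hk, hkP⟩ := isPiHallOf_exists_conj hs hP hQ
  let _ := conjAct X
  obtain ⟨c, hc, hcP⟩ := glauberman_unique hAG hcop (Or.inr hs) P
    (fun a ha => cj_eq_of_mem_normalizer (hPA ha)) hk
    (fun a ha => by
      change Helper30.cj a (Helper30.cj k P) = Helper30.cj k P
      rw [← hkP]; exact cj_eq_of_mem_normalizer (hQA ha))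
  exact ⟨c, hc, hkP.trans hcP.symm⟩

end Basic

section Dominance

/-- `U` lies in an `A`-invariant Hall `π`-subgroup of `G`. -/
def HallC (π : Set ℕ) {X : Type u} [Group X] (A G U : Subgroup X) : Prop :=
  ∃ H : Subgroup X, IsPiHallOf π H G ∧ A ≤ normalizer (H : Set X) ∧ U ≤ H

theorem hallC_transfer {X : Type u} [Group X] {π : Set ℕ} {A G U M : Subgroup X} (hA : A ≤ M)
    (hG : G ≤ M) (hU : U ≤ M)
    (h : HallC π (A.subgroupOf M) (G.subgroupOf M) (U.subgroupOf M)) : HallC π A G U := by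
  obtain ⟨H', ⟨h1, h2, h3⟩, hA', hU'⟩ := h
  refine ⟨H'.map M.subtype, ⟨?_, ?_, ?_⟩, ?_, ?_⟩
  · have := Subgroup.map_mono (f := M.subtype) h1
    rwa [map_subgroupOf_eq_of_le hG] at this
  · rw [card_map_of_injective M.subtype_injective]; exact h2
  · have : (H'.map M.subtype).subgroupOf M = H' :=
      comap_map_eq_self_of_injective M.subtype_injective H'
    rw [← relIndex_subgroupOf hG, this]; exact h3
  · have := (Subgroup.map_mono (f := M.subtype) hA').trans (le_normalizer_map M.subtype)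
    rwa [map_subgroupOf_eq_of_le hA] at this
  · have := Subgroup.map_mono (f := M.subtype) hU'
    rwa [map_subgroupOf_eq_of_le hU] at this

theorem hallC_normal_step (π : Set ℕ) (n : ℕ)
    (IH : ∀ (Y : Type u) [Group Y] [Finite Y] (A G U : Subgroup Y), Nat.card G < n →
      A ≤ normalizer (G : Set Y) → (Nat.card A).Coprime (Nat.card G) → Group.IsSolvable G →
      U ≤ G → A ≤ normalizer (U : Set Y) → PiNum π (Nat.card U) → HallC π A G U)
    (X : Type u) [Group X] [Finite X] (A G U : Subgroup X) [hGn : G.Normal]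
    (hn : Nat.card G = n) (hcop : (Nat.card A).Coprime (Nat.card G)) (hs : Group.IsSolvable G)
    (hUG : U ≤ G) (hAU : A ≤ normalizer (U : Set X)) (hU : PiNum π (Nat.card U)) :
    HallC π A G U := by
  have hAG : A ≤ normalizer (G : Set X) := by rw [normalizer_eq_top]; exact le_top
  by_cases hG : G = ⊥
  · subst hG
    refine ⟨⊥, ⟨le_rfl, ?_, ?_⟩, hAG, hUG⟩
    · rw [card_bot]; exact piNum_one
    · rw [relIndex_self]; exact piNum'_one
  obtain ⟨N, hNG, hNn, hN1, -, p, hp, hNp⟩ :=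
    Cfsg.Agent.Lib.Helper1.exists_normal_abelian_pgroup_le G hG hs
  haveI := hNn
  haveI : Fact p.Prime := ⟨hp⟩
  set f := QuotientGroup.mk' N with hf
  have hker : f.ker = N := QuotientGroup.ker_mk' N
  have hcomapG : (G.map f).comap f = G := by rw [comap_map_eq, hker, sup_eq_left.2 hNG]
  have hcardG : Nat.card G = Nat.card (G.map f) * Nat.card N := by
    have := Cfsg.Agent.Lib.Lead.card_comap_mk' N (G.map f)
    rwa [← hf, hcomapG] at this
  have hN1' : 1 < Nat.card N := (Subgroup.one_lt_card_iff_ne_bot N).2 hN1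
  have hlt : Nat.card (G.map f) < n := by
    rw [← hn, hcardG]; exact lt_mul_of_one_lt_right Nat.card_pos hN1'
  obtain ⟨k, hk⟩ := IsPGroup.iff_card.1 hNp
  have hsmap : Group.IsSolvable (G.map f) :=
    Group.isSolvable_of_surjective (f := f.subgroupMap G) (f.subgroupMap_surjective G)
  obtain ⟨Hb, ⟨hb1, hb2, hb3⟩, hbA, hbU⟩ := IH (X ⧸ N) (A.map f) (G.map f) (U.map f) hlt
    ((map_mono hAG).trans (le_normalizer_map f))
    (Nat.Coprime.of_dvd (card_map_dvd A f) (card_map_dvd G f) hcop)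
    hsmap (map_mono hUG) ((map_mono hAU).trans (le_normalizer_map f))
    (hU.of_dvd (card_map_dvd U f))
  set H := Hb.comap f with hH
  have hHG : H ≤ G := by rw [← hcomapG]; exact comap_mono hb1
  have hAH : A ≤ normalizer (H : Set X) :=
    (le_comap_map f A).trans ((comap_mono hbA).trans (le_normalizer_comap f))
  have hUH : U ≤ H := (le_comap_map f U).trans (comap_mono hbU)
  have hcardH : Nat.card H = Nat.card Hb * Nat.card N := Cfsg.Agent.Lib.Lead.card_comap_mk' N Hb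
  have hrel : H.relIndex G = Hb.relIndex (G.map f) := relIndex_comap Hb f G
  by_cases hpπ : p ∈ π
  · exact ⟨H, ⟨hHG, by rw [hcardH, hk]; exact PiNum.mul hb2 (piNum_prime_pow hp hpπ k),
      by rw [hrel]; exact hb3⟩, hAH, hUH⟩
  have hNπ : PiNum' π (Nat.card N) := by rw [hk]; exact piNum'_prime_pow hp hpπ k
  by_cases hHeq : H = G
  · obtain ⟨K, hK, hAK⟩ := exists_invariant_isPiHallOf hAG hcop hs π
    have hcardK : Nat.card K = Nat.card Hb := by
      refine pi_factorization_unique (π := π) (n₁ := K.relIndex G) (n₂ := Nat.card N) ?_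
        hK.2.1 hK.2.2 hb2 hNπ
      rw [← card_eq_card_mul_relIndex hK.1, ← hcardH, hHeq]
    have hcopNK : (Nat.card N).Coprime (Nat.card K) := (PiNum.coprime hK.2.1 hNπ).symm
    have hKN : K ⊔ N = G := by
      refine eq_of_le_of_card_ge (sup_le hK.1 hNG) ?_
      rw [Cfsg.Agent.Lib.Lead.card_sup_of_coprime N K hcopNK, hcardK, ← hcardH, hHeq]
    have hAN : A ≤ normalizer (N : Set X) := by rw [normalizer_eq_top]; exact le_top
    have hWG : U ⊔ N ≤ G := sup_le hUG hNG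
    have hAW : A ≤ normalizer ((U ⊔ N : Subgroup X) : Set X) := le_normalizer_sup hAU hAN
    have hcopNU : (Nat.card N).Coprime (Nat.card U) := (PiNum.coprime hU hNπ).symm
    have hcardW : Nat.card (U ⊔ N : Subgroup X) = Nat.card U * Nat.card N :=
      Cfsg.Agent.Lib.Lead.card_sup_of_coprime N U hcopNU
    have hUW : IsPiHallOf π U (U ⊔ N) := by
      refine ⟨le_sup_left, hU, ?_⟩
      have h1 := card_eq_card_mul_relIndex (le_sup_left : U ≤ U ⊔ N)
      rw [hcardW] at h1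
      rw [← Nat.eq_of_mul_eq_mul_left Nat.card_pos h1]
      exact hNπ
    have hW' : U ⊔ N = ((U ⊔ N) ⊓ K) ⊔ N := by
      apply le_antisymm
      · intro w hw
        have hwG : w ∈ K ⊔ N := by rw [hKN]; exact hWG hw
        obtain ⟨y, hy, z, hz, rfl⟩ := mem_sup_of_normal_right.1 hwG
        have hyW : y ∈ U ⊔ N := by
          have : y = (y * z) * z⁻¹ := by group
          rw [this]
          exact mul_mem hw (inv_mem ((le_sup_right : N ≤ U ⊔ N) hz))
        exact mul_mem ((le_sup_left : (U ⊔ N) ⊓ K ≤ ((U ⊔ N) ⊓ K) ⊔ N) ⟨hyW, hy⟩)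
          ((le_sup_right : N ≤ ((U ⊔ N) ⊓ K) ⊔ N) hz)
      · exact sup_le inf_le_left le_sup_right
    have hcopNK1 : (Nat.card N).Coprime (Nat.card ((U ⊔ N) ⊓ K : Subgroup X)) :=
      Nat.Coprime.coprime_dvd_right (card_dvd_of_le inf_le_right) hcopNK
    have hcardW2 : Nat.card (U ⊔ N : Subgroup X)
        = Nat.card ((U ⊔ N) ⊓ K : Subgroup X) * Nat.card N := by
      have := Cfsg.Agent.Lib.Lead.card_sup_of_coprime N ((U ⊔ N) ⊓ K) hcopNK1
      rwa [← hW'] at this
    have hK1W : IsPiHallOf π ((U ⊔ N) ⊓ K) (U ⊔ N) := by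
      refine ⟨inf_le_left, PiNum.of_dvd hK.2.1 (card_dvd_of_le inf_le_right), ?_⟩
      have h1 := card_eq_card_mul_relIndex (inf_le_left : (U ⊔ N) ⊓ K ≤ U ⊔ N)
      rw [hcardW2] at h1
      rw [← Nat.eq_of_mul_eq_mul_left Nat.card_pos h1]
      exact hNπ
    have hAK1 : A ≤ normalizer (((U ⊔ N) ⊓ K : Subgroup X) : Set X) := le_normalizer_inf hAW hAK
    obtain ⟨c, hc, hcU⟩ := invariant_isPiHallOf_conj hAW
      (Nat.Coprime.coprime_dvd_right (card_dvd_of_le hWG) hcop) (isSolvable_of_le hWG hs)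
      hK1W hUW hAK1 hAU
    refine ⟨Helper30.cj c K, ?_, ?_, ?_⟩
    · have := isPiHallOf_cj hK c
      rwa [cj_eq_of_mem (hWG hc.1)] at this
    · intro a ha
      apply mem_normalizer_of_cj_eq
      have hcomm : a * c = c * a := (mem_centralizer_iff.1 hc.2) a ha
      rw [← cj_mul, hcomm, cj_mul, cj_eq_of_mem_normalizer (hAK ha)]
    · rw [hcU]; exact cj_mono c inf_le_right
  · have hlt2 : Nat.card H < n := hn ▸ card_lt_of_lt (lt_of_le_of_ne hHG hHeq)
    obtain ⟨H₁, ⟨h1, h2, h3⟩, hA1, hU1⟩ := IH X A H U hlt2 hAH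
      (Nat.Coprime.coprime_dvd_right (card_dvd_of_le hHG) hcop) (isSolvable_of_le hHG hs)
      hUH hAU hU
    refine ⟨H₁, ⟨h1.trans hHG, h2, ?_⟩, hA1, hU1⟩
    rw [← relIndex_mul_relIndex H₁ H G h1 hHG]
    exact PiNum'.mul h3 (by rw [hrel]; exact hb3)

theorem hallC_aux (π : Set ℕ) : ∀ (n : ℕ) (X : Type u) [Group X] [Finite X] (A G U : Subgroup X),
    Nat.card G = n → A ≤ normalizer (G : Set X) → (Nat.card A).Coprime (Nat.card G) →
    Group.IsSolvable G → U ≤ G → A ≤ normalizer (U : Set X) → PiNum π (Nat.card U) →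
    HallC π A G U := by
  intro n
  induction n using Nat.strong_induction_on with
  | _ n ih =>
  intro X _ _ A G U hn hAG hcop hs hUG hAU hU
  have hGM : G ≤ normalizer (G : Set X) := le_normalizer
  apply hallC_transfer (M := normalizer (G : Set X)) hAG hGM (hUG.trans hGM)
  haveI : (G.subgroupOf (normalizer (G : Set X))).Normal := normal_in_normalizer
  apply hallC_normal_step π n (fun Y _ _ A' G' U' hlt => ih _ hlt Y A' G' U' rfl)
  · rw [card_subgroupOf hGM, hn]
  · rw [card_subgroupOf hGM, card_subgroupOf hAG]; exact hcop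
  · exact isSolvable_subgroupOf hs
  · exact comap_mono hUG
  · exact (comap_mono hAU).trans (le_normalizer_comap _)
  · rw [card_subgroupOf (hUG.trans hGM)]; exact hU

/-- Coprime action: an invariant `π`-subgroup lies in an invariant Hall `π`-subgroup. -/
theorem exists_invariant_isPiHallOf_ge {X : Type u} [Group X] [Finite X] {π : Set ℕ}
    {A G U : Subgroup X} (hAG : A ≤ normalizer (G : Set X))
    (hcop : (Nat.card A).Coprime (Nat.card G)) (hs : Group.IsSolvable G) (hUG : U ≤ G)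
    (hAU : A ≤ normalizer (U : Set X)) (hU : ∀ p : ℕ, p.Prime → p ∣ Nat.card U → p ∈ π) :
    ∃ H : Subgroup X, IsPiHallOf π H G ∧ A ≤ normalizer (H : Set X) ∧ U ≤ H :=
  hallC_aux π _ X A G U rfl hAG hcop hs hUG hAU hU

end Dominance

end Cfsg.Agent.Lib.Helper66
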