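import Mathlib
import Cfsg.Agent.Lib.Helper74.NormTrick
import Cfsg.Agent.Lib.Helper54.CoprimeGen
import Cfsg.Agent.Lib.Helper3.PGroup

set_option autoImplicit false
set_option linter.style.haveILetI false

/-!
# Frobenius-type actions without fixed points (no representation theory)

`frob_trivial`: let `K` be a finite group normalized by an element `t` with `t ^ p = 1`
(`p` prime) and `C_K(t) = 1`; let `K⟨t⟩` act on the finite abelian group `V`, let `W ≤ V` be invariant
with `C_W(t) = 1` and `(|K|, |V|) = 1`.  Then `K` acts trivially on `W`.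
-/

namespace Cfsg.Agent.Lib.Helper66

open Finset

/-- The norm trick of `Helper74.normTrick`, at a single vector `w`. -/
theorem normTrick_at {Γ W : Type*} [Group Γ] [CommGroup W] (ρ : Γ →* MulAut W)
    (X : Subgroup Γ) [Finite X] (t : Γ) (p : ℕ) (hp : p.Prime)
    (htX : ∀ y ∈ X, t * y * t⁻¹ ∈ X)
    (hpow : ∀ y ∈ X, (y * t) ^ p = 1) (w : W)
    (hN : ∀ y ∈ X, ∏ i ∈ range p, ρ ((y * t) ^ i) w = 1) :
    ∀ x ∈ X, ρ x (w ^ Nat.card X) = w ^ Nat.card X := by
  classical
  let _ := Fintype.ofFinite X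
  have htX' : ∀ (i : ℕ), ∀ y ∈ X, t ^ i * y * (t ^ i)⁻¹ ∈ X := by
    intro i
    induction i with
    | zero => intro y hy; simpa using hy
    | succ i ih =>
      intro y hy
      have h1 := htX _ (ih y hy)
      have h2 : t ^ (i + 1) * y * (t ^ (i + 1))⁻¹ = t * (t ^ i * y * (t ^ i)⁻¹) * t⁻¹ := by
        rw [pow_succ']; group
      rw [h2]; exact h1
  have hf : ∀ (i : ℕ), ∀ y ∈ X, (y * t) ^ i * (t ^ i)⁻¹ ∈ X := by
    intro i
    induction i with
    | zero => intro y _; simp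
    | succ i ih =>
      intro y hy
      have h2 : (y * t) ^ (i + 1) * (t ^ (i + 1))⁻¹
          = ((y * t) ^ i * (t ^ i)⁻¹) * (t ^ i * y * (t ^ i)⁻¹) := by
        rw [pow_succ, pow_succ]; group
      rw [h2]
      exact X.mul_mem (ih y hy) (htX' i y hy)
  let T : W → W := fun w => ∏ x : X, ρ (x : Γ) w
  have hTinv : ∀ w : W, ∀ x ∈ X, ρ x (T w) = T w := by
    intro w x hx
    change ρ x (∏ y : X, ρ (y : Γ) w) = ∏ y : X, ρ (y : Γ) w
    rw [map_prod]
    refine Fintype.prod_equiv (Equiv.mulLeft (⟨x, hx⟩ : X)) _ _ ?_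
    intro y
    simp [map_mul]
  have hTmul : ∀ (s : Finset ℕ) (g : ℕ → W), T (∏ i ∈ s, g i) = ∏ i ∈ s, T (g i) := by
    intro s g
    change ∏ x : X, ρ (x : Γ) (∏ i ∈ s, g i) = ∏ i ∈ s, ∏ x : X, ρ (x : Γ) (g i)
    rw [prod_comm]
    refine prod_congr rfl fun x _ => ?_
    rw [map_prod]
  have hTinvw : ∀ w : W, T w⁻¹ = (T w)⁻¹ := by
    intro w
    change ∏ x : X, ρ (x : Γ) w⁻¹ = (∏ x : X, ρ (x : Γ) w)⁻¹
    rw [← prod_inv_distrib]
    refine prod_congr rfl fun x _ => ?_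
    rw [map_inv]
  have hrow : ∀ i, 0 < i → i < p → ∀ w : W,
      ∏ y : X, ρ (((y : Γ) * t) ^ i) w = T (ρ (t ^ i) w) := by
    intro i hi0 hip w
    let f : X → X := fun y => ⟨((y : Γ) * t) ^ i * (t ^ i)⁻¹, hf i y y.2⟩
    have hfinj : Function.Injective f := by
      intro y y' hyy
      have h1 : ((y : Γ) * t) ^ i * (t ^ i)⁻¹ = ((y' : Γ) * t) ^ i * (t ^ i)⁻¹ :=
        congrArg Subtype.val hyy
      have h2 := mul_right_cancel h1
      have h3 := Cfsg.Agent.Lib.Helper74.eq_of_pow_eq_of_pow_prime hp hi0 hip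
        (hpow y y.2) (hpow y' y'.2) h2
      exact Subtype.ext (mul_right_cancel h3)
    have hfbij : Function.Bijective f := Finite.injective_iff_bijective.1 hfinj
    change _ = ∏ x : X, ρ (x : Γ) (ρ (t ^ i) w)
    rw [← hfbij.prod_comp (fun x : X => ρ (x : Γ) (ρ (t ^ i) w))]
    refine prod_congr rfl fun y _ => ?_
    change _ = ρ (((y : Γ) * t) ^ i * (t ^ i)⁻¹) (ρ (t ^ i) w)
    rw [← MulAut.mul_apply, ← map_mul, inv_mul_cancel_right]
  have hkey : T w = w ^ Nat.card X := by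
    obtain ⟨p', rfl⟩ : ∃ p', p = p' + 1 := ⟨p - 1, (Nat.succ_pred_eq_of_pos hp.pos).symm⟩
    have h1 : ∏ y : X, ∏ i ∈ range (p' + 1), ρ (((y : Γ) * t) ^ i) w = 1 :=
      prod_eq_one fun y _ => hN y y.2
    rw [prod_comm, prod_range_succ'] at h1
    have h2 : ∏ i ∈ range p', ∏ y : X, ρ (((y : Γ) * t) ^ (i + 1)) w
        = T (∏ i ∈ range p', ρ (t ^ (i + 1)) w) := by
      rw [hTmul]
      refine prod_congr rfl fun i hi => ?_
      exact hrow (i + 1) (Nat.succ_pos i) (Nat.succ_lt_succ (mem_range.1 hi)) w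
    have h3 : ∏ i ∈ range p', ρ (t ^ (i + 1)) w = w⁻¹ := by
      have h4 := hN 1 X.one_mem
      rw [prod_range_succ'] at h4
      simp only [one_mul, pow_zero, map_one, MulAut.one_apply] at h4
      exact eq_inv_of_mul_eq_one_left h4
    rw [h2, h3, hTinvw] at h1
    simp only [pow_zero, map_one, MulAut.one_apply, prod_const, card_univ] at h1
    rw [Nat.card_eq_fintype_card]
    exact (inv_mul_eq_one.1 h1)
  intro x hx
  rw [← hkey]
  exact hTinv w x hx

/-- **Frobenius actions.** `K` finite, normalized by `t`, `t ^ p = 1`, `C_K(t) = 1`; `W ≤ V` invariant under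
`K` and `t` with `C_W(t) = 1`, and `(|K|, |V|) = 1`: then `K` acts trivially on `W`. -/
theorem frob_trivial {Γ V : Type*} [Group Γ] [CommGroup V] [Finite V] (θ : Γ →* MulAut V)
    (K : Subgroup Γ) [Finite K] (t : Γ) (p : ℕ) (hp : p.Prime) (htp : t ^ p = 1)
    (htK : ∀ k ∈ K, t * k * t⁻¹ ∈ K) (hfK : ∀ k ∈ K, t * k * t⁻¹ = k → k = 1)
    (W : Subgroup V) (hKW : ∀ k ∈ K, ∀ w ∈ W, θ k w ∈ W) (htW : ∀ w ∈ W, θ t w ∈ W)
    (hfW : ∀ w ∈ W, θ t w = w → w = 1) (hcop : (Nat.card K).Coprime (Nat.card V)) :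
    ∀ k ∈ K, ∀ w ∈ W, θ k w = w := by
  classical
  -- every `y t` is conjugate to `t` under `K`
  have hconj : ∀ y ∈ K, ∃ c ∈ K, y * t = c * t * c⁻¹ := by
    let f : K → K := fun c => ⟨(c : Γ) * (t * (c : Γ)⁻¹ * t⁻¹), K.mul_mem c.2 (htK _ (K.inv_mem c.2))⟩
    have hfinj : Function.Injective f := by
      intro c d hcd
      have h1 : (c : Γ) * (t * (c : Γ)⁻¹ * t⁻¹) = (d : Γ) * (t * (d : Γ)⁻¹ * t⁻¹) :=
        congrArg Subtype.val hcd
      have h2 : t * ((d : Γ)⁻¹ * c) * t⁻¹ = (d : Γ)⁻¹ * c := by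
        have h3 : (d : Γ)⁻¹ * c = (t * (d : Γ)⁻¹ * t⁻¹) * (t * (c : Γ)⁻¹ * t⁻¹)⁻¹ := by
          rw [eq_mul_inv_iff_mul_eq, mul_assoc, h1]; group
        calc t * ((d : Γ)⁻¹ * c) * t⁻¹ = (t * (d : Γ)⁻¹ * t⁻¹) * (t * (c : Γ)⁻¹ * t⁻¹)⁻¹ := by group
          _ = (d : Γ)⁻¹ * c := h3.symm
      have h4 := hfK _ (K.mul_mem (K.inv_mem d.2) c.2) h2
      exact Subtype.ext (inv_mul_eq_one.1 h4).symm
    have hfsurj : Function.Surjective f := Finite.injective_iff_surjective.1 hfinj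
    intro y hy
    obtain ⟨c, hc⟩ := hfsurj ⟨y, hy⟩
    refine ⟨c, c.2, ?_⟩
    have h1 : (c : Γ) * (t * (c : Γ)⁻¹ * t⁻¹) = y := congrArg Subtype.val hc
    rw [← h1]; group
  have hpowc : ∀ (c : Γ) (i : ℕ), (c * t * c⁻¹) ^ i = c * t ^ i * c⁻¹ := by
    intro c i
    rw [conj_pow]
  -- the norm of `t` vanishes on `W`
  have hnorm : ∀ w ∈ W, ∏ i ∈ range p, θ (t ^ i) w = 1 := by
    intro w hw
    apply hfW
    · apply Subgroup.prod_mem
      intro i _
      clear * - hw htW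
      induction i with
      | zero => simpa using hw
      | succ i ih =>
        rw [pow_succ', map_mul, MulAut.mul_apply]
        exact htW _ ih
    · rw [map_prod]
      have h1 : ∀ i, θ t (θ (t ^ i) w) = θ (t ^ (i + 1)) w := by
        intro i
        rw [pow_succ', map_mul, MulAut.mul_apply]
      simp_rw [h1]
      obtain ⟨p', rfl⟩ : ∃ p', p = p' + 1 := ⟨p - 1, (Nat.succ_pred_eq_of_pos hp.pos).symm⟩
      rw [prod_range_succ, prod_range_succ' (fun i => θ (t ^ i) w), htp]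
      simp
  have key : ∀ w ∈ W, ∀ x ∈ K, θ x (w ^ Nat.card K) = w ^ Nat.card K := by
    intro w hw
    apply normTrick_at θ K t p hp htK
    · intro y hy
      obtain ⟨c, _, hc⟩ := hconj y hy
      rw [hc, hpowc, htp]; group
    · intro y hy
      obtain ⟨c, hcK, hc⟩ := hconj y hy
      have h1 : ∀ i, θ ((y * t) ^ i) w = θ c (θ (t ^ i) (θ c⁻¹ w)) := by
        intro i
        rw [hc, hpowc, map_mul, map_mul, MulAut.mul_apply, MulAut.mul_apply]
      simp_rw [h1]
      rw [← map_prod, hnorm _ (hKW _ (K.inv_mem hcK) _ hw), map_one]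
  intro k hk w hw
  have h1 := key w hw k hk
  rw [map_pow] at h1
  have h2 : (θ k w * w⁻¹) ^ Nat.card K = 1 := by
    rw [mul_pow, h1, inv_pow, mul_inv_cancel]
  have h3 : orderOf (θ k w * w⁻¹) ∣ Nat.card K := orderOf_dvd_of_pow_eq_one h2
  have h4 : orderOf (θ k w * w⁻¹) ∣ Nat.card V := orderOf_dvd_natCard _
  have h5 : orderOf (θ k w * w⁻¹) = 1 := Nat.eq_one_of_dvd_coprimes hcop h3 h4
  exact mul_inv_eq_one.1 (orderOf_eq_one_iff.1 h5)

section nonabelian
open Subgroup
open scoped commutatorElement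
variable {Γ : Type*} [Group Γ]

/-- the action of the normalizer of `P` on the abelianization of `P`, by automorphisms -/
noncomputable def abAut (P : Subgroup Γ) :
    (normalizer (P : Set Γ) : Subgroup Γ) →* MulAut (Abelianization P) where
  toFun g := (P.normalizerMonoidHom g).abelianizationCongr
  map_one' := by
    ext x
    obtain ⟨x, rfl⟩ := QuotientGroup.mk_surjective x
    rw [map_one]
    rfl
  map_mul' g h := by
    ext x
    obtain ⟨x, rfl⟩ := QuotientGroup.mk_surjective x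
    rw [map_mul]
    rfl

theorem abAut_apply (P : Subgroup Γ) (g : (normalizer (P : Set Γ) : Subgroup Γ))
    (v : Abelianization P) : abAut P g v = Helper54.abAct P g v := rfl

/-- **Frobenius actions on `q`-groups.** `K` and `t` normalize the `q`-group `P`, `t` normalizes `K`,
`t ^ p = 1`, `C_K(t) = 1 = C_P(t)`, `(|K|, |P|) = 1`, `p ≠ q`: then `K` centralizes `P`. -/
theorem frob_centralizes [Finite Γ] (P K : Subgroup Γ) (t : Γ) (p q : ℕ) (hp : p.Prime)
    [hq : Fact q.Prime] (hpq : p ≠ q) (htp : t ^ p = 1) (hP : IsPGroup q P)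
    (hKP : K ≤ normalizer (P : Set Γ)) (htP : t ∈ normalizer (P : Set Γ))
    (htK : ∀ k ∈ K, t * k * t⁻¹ ∈ K) (hfK : ∀ k ∈ K, t * k * t⁻¹ = k → k = 1)
    (hfP : ∀ u ∈ P, t * u * t⁻¹ = u → u = 1) (hcop : (Nat.card K).Coprime (Nat.card P)) :
    ∀ k ∈ K, ∀ u ∈ P, k * u = u * k := by
  obtain ⟨n, hn⟩ := IsPGroup.iff_card.mp hP
  have hcardAb : Nat.card (Abelianization P) ∣ Nat.card P := by
    have := Subgroup.card_quotient_dvd_card (commutator P)
    exact this
  have htcop : (orderOf t).Coprime (Nat.card P) := by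
    rw [hn]
    apply Nat.Coprime.pow_right
    have h1 : orderOf t ∣ p := orderOf_dvd_of_pow_eq_one htp
    exact Nat.Coprime.coprime_dvd_left h1 ((Nat.coprime_primes hp hq.out).2 hpq)
  have h1 := frob_trivial (abAut P) (K.subgroupOf (normalizer (P : Set Γ))) ⟨t, htP⟩ p hp
    (Subtype.ext (by simpa using htp))
    (by
      intro k hk
      rw [mem_subgroupOf] at hk ⊢
      exact htK _ hk)
    (by
      intro k hk h
      rw [mem_subgroupOf] at hk
      have := hfK _ hk (congrArg Subtype.val h)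
      exact Subtype.ext this)
    ⊤ (fun _ _ _ _ => mem_top _) (fun _ _ => mem_top _)
    (by
      intro w _ hw
      rw [abAut_apply] at hw
      obtain ⟨c, hc, rfl⟩ := Helper54.exists_lift_of_fixed ⟨t, htP⟩ htcop w hw
      have h2 : t * (c : Γ) = c * t := (mem_centralizer_iff.mp hc t rfl)
      have h3 : (c : Γ) = 1 := hfP _ c.2 (by rw [h2]; group)
      have : c = 1 := Subtype.ext h3
      rw [this, map_one])
    (by
      rw [Helper30.card_subgroupOf hKP]
      exact Nat.Coprime.coprime_dvd_right hcardAb hcop)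
  have h2 : ⁅P, K⁆ ≤ ⁅P, P⁆ := by
    rw [commutator_le]
    intro u hu k hk
    have h3 := h1 ⟨k, hKP hk⟩ (by rw [mem_subgroupOf]; exact hk) (Abelianization.of ⟨u, hu⟩) (mem_top _)
    rw [abAut_apply, Helper54.abAct_of, Helper54.of_eq_of_iff] at h3
    have h4 : ((P.normalizerMonoidHom ⟨k, hKP hk⟩ ⟨u, hu⟩ : P) : Γ) = k * u * k⁻¹ := rfl
    rw [h4] at h3
    have h5 : ⁅u, k⁆ = u * ((k * u * k⁻¹)⁻¹ * u) * u⁻¹ := by
      rw [commutatorElement_def]; group
    rw [h5]
    have hnorm : u ∈ normalizer ((⁅P, P⁆ : Subgroup Γ) : Set Γ) :=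
      Helper30.le_normalizer_commutator le_normalizer le_normalizer hu
    exact (mem_normalizer_iff.mp hnorm _).mp h3
  have hPsol : Group.IsSolvable P := by
    haveI := hP.isNilpotent
    infer_instance
  have h3 := Helper30.commutator_sup_centralizer hKP hcop (Or.inr hPsol)
  obtain ⟨C, hC⟩ : ∃ C : Subgroup Γ, C = P ⊓ centralizer (K : Set Γ) := ⟨_, rfl⟩
  rw [← hC] at h3
  have hCP : C ≤ P := hC ▸ inf_le_left
  have h4 : C ⊔ ⁅P, P⁆ = P := by
    apply le_antisymm (sup_le hCP (commutator_le_self P))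
    calc P = ⁅P, K⁆ ⊔ C := h3.symm
      _ ≤ C ⊔ ⁅P, P⁆ := sup_le (h2.trans le_sup_right) le_sup_left
  have h5 : C.subgroupOf P ⊔ frattini P = ⊤ := by
    rw [eq_top_iff]
    have h6 : C.subgroupOf P ⊔ commutator P = ⊤ := by
      apply Subgroup.map_injective P.subtype_injective
      rw [Subgroup.map_sup, Helper54.map_subtype_commutator_eq, Subgroup.subgroupOf_map_subtype,
        ← MonoidHom.range_eq_map, range_subtype, inf_eq_left.2 hCP, h4]
    rw [← h6]
    exact sup_le_sup le_rfl (Helper3.commutator_le_frattini hP)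
  have h6 := frattini_nongenerating h5
  rw [subgroupOf_eq_top] at h6
  intro k hk u hu
  have h7 := h6 hu
  rw [hC] at h7
  exact (mem_centralizer_iff.mp h7.2 k hk)

end nonabelian

end Cfsg.Agent.Lib.Helper66
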