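import Cfsg.Agent.Lib.Helper50.GISp

/-!
# GRAPH-INV rung DETSP: the determinant of a similitude of an alternating form
-/

set_option autoImplicit false
set_option linter.unusedSectionVars false
set_option linter.unusedVariables false
set_option linter.style.haveILetI false

namespace Cfsg.Agent.Lib.Helper66.GI

open Matrix MatrixGroups Cfsg.Agent.Lib.Helper50.GI

variable {K : Type*} [Field K]

theorem det_sim_J {l : Type*} [Fintype l] [DecidableEq l] (g : Matrix (l ⊕ l) (l ⊕ l) K) (c : K)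
    (h : gᵀ * Matrix.J l K * g = c • Matrix.J l K) : g.det = c ^ Fintype.card l := by
  have hJ : (Matrix.J l K).det ≠ 0 := by
    intro h0
    have := Matrix.J_det_mul_J_det l K
    rw [h0, zero_mul] at this
    exact zero_ne_one this
  by_cases hc : c = 0
  · subst hc
    rcases isEmpty_or_nonempty l with hl | hl
    · rw [det_isEmpty, Fintype.card_eq_zero, pow_zero]
    · rw [zero_pow Fintype.card_ne_zero]
      have h1 := congrArg Matrix.det h
      rw [zero_smul, det_mul, det_mul, det_transpose, det_zero] at h1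
      rcases mul_eq_zero.1 h1 with h2 | h2
      · rcases mul_eq_zero.1 h2 with h3 | h3
        · exact h3
        · exact absurd h3 hJ
      · exact h2
  · obtain ⟨D, hD⟩ : ∃ D : Matrix (l ⊕ l) (l ⊕ l) K,
        D = fromBlocks (c⁻¹ • (1 : Matrix l l K)) 0 0 1 := ⟨_, rfl⟩
    have hDt : Dᵀ = D := by
      rw [hD, fromBlocks_transpose]
      simp
    have hDJ : D * Matrix.J l K * D = c⁻¹ • Matrix.J l K := by
      rw [hD, Matrix.J, fromBlocks_multiply, fromBlocks_multiply, fromBlocks_smul]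
      simp
    have hA : g * D ∈ Matrix.symplecticGroup l K := by
      rw [SymplecticGroup.mem_iff', transpose_mul, hDt]
      have : D * gᵀ * Matrix.J l K * (g * D) = D * (gᵀ * Matrix.J l K * g) * D := by
        simp only [Matrix.mul_assoc]
      rw [this, h, Matrix.mul_smul, Matrix.smul_mul, hDJ, smul_smul, mul_inv_cancel₀ hc, one_smul]
    have h1 := SymplecticGroup.det_eq_one hA
    have hdD : D.det = (c⁻¹) ^ Fintype.card l := by
      rw [hD, det_fromBlocks_zero₂₁, det_smul, det_one, mul_one, mul_one]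
    rw [det_mul, hdD, inv_pow] at h1
    exact (mul_inv_eq_one₀ (pow_ne_zero _ hc)).1 h1

theorem exists_conj_sim {n : Type*} [Fintype n] [DecidableEq n] (N J P : Matrix n n K)
    (hP : IsUnit P) (hNJ : N = P * J * Pᵀ) (g : Matrix n n K) (c : K)
    (h : gᵀ * N * g = c • N) : ∃ g' : Matrix n n K, g'.det = g.det ∧ g'ᵀ * J * g' = c • J := by
  have hPt : IsUnit Pᵀ := by
    rw [Matrix.isUnit_iff_isUnit_det, det_transpose, ← Matrix.isUnit_iff_isUnit_det]
    exact hP
  have hPd : IsUnit P.det := (Matrix.isUnit_iff_isUnit_det _).1 hP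
  have hPtd : IsUnit Pᵀ.det := (Matrix.isUnit_iff_isUnit_det _).1 hPt
  refine ⟨Pᵀ * g * (Pᵀ)⁻¹, Matrix.det_conj hPt g, ?_⟩
  rw [transpose_mul, transpose_mul, transpose_transpose, transpose_nonsing_inv,
    transpose_transpose]
  have : P⁻¹ * (gᵀ * P) * J * (Pᵀ * g * (Pᵀ)⁻¹) = P⁻¹ * (gᵀ * (P * J * Pᵀ) * g) * (Pᵀ)⁻¹ := by
    simp only [Matrix.mul_assoc]
  rw [this, ← hNJ, h, hNJ, Matrix.mul_smul, Matrix.smul_mul]
  congr 1
  have : P⁻¹ * (P * J * Pᵀ) * (Pᵀ)⁻¹ = (P⁻¹ * P) * J * (Pᵀ * (Pᵀ)⁻¹) := by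
    simp only [Matrix.mul_assoc]
  rw [this, Matrix.nonsing_inv_mul _ hPd, Matrix.mul_nonsing_inv _ hPtd, Matrix.one_mul,
    Matrix.mul_one]

/-- **RUNG DETSP** -/
theorem det_simB_alt {m : ℕ} (N : Matrix (Fin (2 * m)) (Fin (2 * m)) K) (hN : Nᵀ = -N)
    (hN0 : ∀ i, N i i = 0) (hd : N.det ≠ 0) (g : Matrix (Fin (2 * m)) (Fin (2 * m)) K) (c : K)
    (h : gᵀ * N * g = c • N) : g.det = c ^ m := by
  obtain ⟨P, hP⟩ := congr_alt_even (Jn K m) N (Jn_transpose m) (Jn_diag m) hN hN0
    (Jn_det_ne_zero m) hd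
  obtain ⟨g', hg', hg'J⟩ := exists_conj_sim N (Jn K m) P.1 P.isUnit hP g c h
  obtain ⟨e, he⟩ : ∃ e : Fin (2 * m) ≃ Fin m ⊕ Fin m,
      e = (finCongr (two_mul m)).trans finSumFinEquiv.symm := ⟨_, rfl⟩
  have hJn : Jn K m = (Matrix.J (Fin m) K).submatrix e e := by rw [he]; rfl
  have h1 : (g'.submatrix e.symm e.symm)ᵀ * Matrix.J (Fin m) K * (g'.submatrix e.symm e.symm)
      = c • Matrix.J (Fin m) K := by
    have hJ : Matrix.J (Fin m) K = (Jn K m).submatrix e.symm e.symm := by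
      rw [hJn]
      simp
    rw [hJ, transpose_submatrix, submatrix_mul_equiv, submatrix_mul_equiv, hg'J]
    rfl
  have h2 := det_sim_J _ c h1
  rw [det_submatrix_equiv_self, Fintype.card_fin] at h2
  rw [← hg', h2]

end Cfsg.Agent.Lib.Helper66.GI
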