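import Mathlib
import Cfsg.Agent.Lib.Helper66.OGrpD

set_option autoImplicit false
set_option linter.unusedSectionVars false
set_option linter.unusedVariables false

/-!
# Coset conjugacy for `PΩ⁺`: the main theorem
-/

namespace Cfsg.Agent.Lib.Helper66.OGrp

open Matrix QuadraticMap Module
open scoped MatrixGroups
open Cfsg.Agent.Lib.Helper49 (GamL GamO semiFun glMap coe_glMap cGam cGam_induced
  eq_cGam_of_induced mem_GamO IsLagr ker_cGam
  plusQF plusQF_coe plusQF_nondegenerate isLagr_stdLagr stdLagr gammaPOmega_eq_range)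
open Cfsg.Agent.Lib.Helper6.OA (GO O_le_GO)
open Cfsg.Agent.Lib.Helper18.AutPSL (mp mp_apply mp_eq_map)
open Cfsg.Agent.Lib.Helper66.OLang (sv fixF swapVec plus_swapVec sv_swapVec)
open Cfsg.Agent.Lib.Helper50.Quad (exists_noroot)

variable {ι : Type} [Fintype ι] [DecidableEq ι] {F : Type*} [Field F]

section generic

variable (Q : QuadraticForm F (ι → F))
  (hσQ : ∀ (σ : F ≃+* F) (v : ι → F), Q (fun i => σ (v i)) = σ (Q v))

theorem field_eq (σ : F ≃+* F) (φ : Cfsg.POmega F ⇑Q ≃* Cfsg.POmega F ⇑Q)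
    (h : Cfsg.IsFieldAutPOmegaOf ⇑Q σ φ) : φ = cGam ⇑Q (gS Q hσQ σ) := by
  apply eq_cGam_of_induced
  intro s s' hs
  apply h
  rw [hs]
  show (1 : GL ι F).1 * _ * ((1 : GL ι F)⁻¹).1 = _
  simp only [inv_one, Units.val_one, Matrix.one_mul, Matrix.mul_one]
  rfl

theorem lin_eq (g : GL ι F) (hg : g ∈ GO ⇑Q) (φ : Cfsg.POmega F ⇑Q ≃* Cfsg.POmega F ⇑Q)
    (h : Cfsg.IsInducedBySemilinearPOmega ⇑Q g (RingEquiv.refl F) φ) :
    φ = cGam ⇑Q (gG Q g hg) :=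
  eq_cGam_of_induced ⇑Q (gG Q g hg) φ h

/-- a linear element fixed by `σ` commutes with the standard field automorphism -/
theorem gG_comm_gS (g : GL ι F) (hg : g ∈ GO ⇑Q) (σ : F ≃+* F) (h : mp σ g.1 = g.1) :
    gG Q g hg * gS Q hσQ σ = gS Q hσQ σ * gG Q g hg := by
  apply Subtype.ext
  show (SemidirectProduct.inl g * SemidirectProduct.inr σ : GamL ι F) =
    SemidirectProduct.inr σ * SemidirectProduct.inl g
  ext1
  · apply Units.ext
    simp only [SemidirectProduct.mul_left, SemidirectProduct.left_inl, SemidirectProduct.right_inl,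
      SemidirectProduct.left_inr, SemidirectProduct.right_inr, map_one, one_mul, mul_one,
      coe_glMap]
    exact h.symm
  · simp

end generic

section plus

variable [Fintype F]

theorem main_plus (k : ℕ) (hk : 5 ≤ k + 1)
    (hub : Cfsg.gammaPOmega F ⇑(plusQF (k + 1) F) = ⊤)
    (x δ : MulAut (Cfsg.POmega F ⇑(plusQF (k + 1) F)))
    (hx : Cfsg.IsFieldAutClassPOmega ⇑(plusQF (k + 1) F) x ∨
      ∃ (α γ φ : MulAut (Cfsg.POmega F ⇑(plusQF (k + 1) F))) (σ : F ≃+* F)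
        (v : Fin (k + 1) ⊕ Fin (k + 1) → F) (r : GL (Fin (k + 1) ⊕ Fin (k + 1)) F),
        σ ≠ RingEquiv.refl F ∧ plusQF (k + 1) F v ≠ 0 ∧ (∀ i, σ (v i) = v i) ∧
        (r : Matrix (Fin (k + 1) ⊕ Fin (k + 1)) (Fin (k + 1) ⊕ Fin (k + 1)) F) =
          Cfsg.reflectionMatrix ⇑(plusQF (k + 1) F) v ∧
        Cfsg.IsInducedBySemilinearPOmega ⇑(plusQF (k + 1) F) r (RingEquiv.refl F) γ ∧
        Cfsg.IsFieldAutPOmegaOf ⇑(plusQF (k + 1) F) σ φ ∧ α * x * α⁻¹ = γ * φ)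
    {r : ℕ} (hr : r.Prime) (hxr : orderOf x = r)
    (hδ : δ ∈ Cfsg.autSubgroupOf (fun β : Cfsg.POmega F ⇑(plusQF (k + 1) F) ≃*
        Cfsg.POmega F ⇑(plusQF (k + 1) F) =>
      ∃ g : GL (Fin (k + 1) ⊕ Fin (k + 1)) F,
        g ∈ Cfsg.Geo.quadSimilarityGroup (F := F) ⇑(plusQF (k + 1) F) ∧
        Cfsg.PreservesSingularClasses ⇑(plusQF (k + 1) F)
          (g : Matrix (Fin (k + 1) ⊕ Fin (k + 1)) (Fin (k + 1) ⊕ Fin (k + 1)) F) ∧
        Cfsg.IsInducedBySemilinearPOmega ⇑(plusQF (k + 1) F) g (RingEquiv.refl F) β)) :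
    orderOf (δ * x) = r ↔ Cfsg.IsConjUnder (Cfsg.autSubgroupOf
      (fun β : Cfsg.POmega F ⇑(plusQF (k + 1) F) ≃* Cfsg.POmega F ⇑(plusQF (k + 1) F) =>
      ∃ g : GL (Fin (k + 1) ⊕ Fin (k + 1)) F,
        g ∈ Cfsg.Geo.quadSimilarityGroup (F := F) ⇑(plusQF (k + 1) F) ∧
        Cfsg.PreservesSingularClasses ⇑(plusQF (k + 1) F)
          (g : Matrix (Fin (k + 1) ⊕ Fin (k + 1)) (Fin (k + 1) ⊕ Fin (k + 1)) F) ∧
        Cfsg.IsInducedBySemilinearPOmega ⇑(plusQF (k + 1) F) g (RingEquiv.refl F) β)) x (δ * x) := by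
  have hQ : (polarBilin (plusQF (k + 1) F)).Nondegenerate := plusQF_nondegenerate (k + 1) F
  have hL : IsLagr (plusQF (k + 1) F) (stdLagr (k + 1) F) := isLagr_stdLagr
  have hσQ := hσQ_plus (F := F) (k + 1)
  have hd : 7 ≤ Fintype.card (Fin (k + 1) ⊕ Fin (k + 1)) := by
    simp only [Fintype.card_sum, Fintype.card_fin]; omega
  rw [inndiag_eq _ hQ hL] at hδ ⊢
  constructor
  swap
  · intro h
    rw [orderOf_of_isConjUnder _ _ _ h, hxr]
  intro ho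
  have hsurj : Function.Surjective (cGam ⇑(plusQF (k + 1) F)) := by
    rw [← MonoidHom.range_eq_top, ← gammaPOmega_eq_range, hub]
  -- the common part
  have common : ∀ (α : MulAut (Cfsg.POmega F ⇑(plusQF (k + 1) F))) (σ : F ≃+* F)
      (Φ t : ↥(GamO ⇑(plusQF (k + 1) F))), σ ≠ 1 → Φ.1.right = σ →
      α * x * α⁻¹ = cGam ⇑(plusQF (k + 1) F) Φ → t.1.right = 1 → ¬ PL (plusQF (k + 1) F) t →
      t * Φ = Φ * t → Cfsg.IsConjUnder ((DD (plusQF (k + 1) F) hQ hL).map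
        (cGam ⇑(plusQF (k + 1) F))) x (δ * x) := by
    intro α σ Φ t hσ hΦ e ht htP htΦ
    have hΦr : (cGam ⇑(plusQF (k + 1) F) Φ) ^ r = 1 := by
      rw [← e, conj_pow, ← hxr, pow_orderOf_eq_one]
      group
    have hσr : σ ^ r = 1 := by
      have h1 : cGam ⇑(plusQF (k + 1) F) (Φ ^ r) = 1 := by rw [map_pow]; exact hΦr
      have h2 := (ker_cGam _ hQ hd (Φ ^ r) h1).1
      have h3 : (Φ.1 ^ r).right = 1 := h2
      rwa [pow_right, hΦ] at h3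
    have hord : orderOf σ = r := by
      have := Fact.mk hr
      exact orderOf_eq_prime hσr hσ
    obtain ⟨ζ₀, hζ₀⟩ := exists_noroot (F := ↥(fixF σ))
    exact coset_conj _ hsurj _ (DD_normal _ hQ hL) Φ r
      (core_of_nf _ hQ hL hσQ σ r _ _
        (fun γ hγ h => nf_plus k (by omega) σ r hr.pos hord ζ₀ hζ₀ γ hγ h) Φ t hΦ hΦr ht htP htΦ)
      x δ α e hδ ho
  rcases hx with ⟨α, φ, σ, hσ, hφ, e⟩ | ⟨α, γ, φ, σ, v, ρ, hσ, hv, hvσ, hρ, hγ, hφ, e⟩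
  · refine common α σ (gS _ hσQ σ) (gR (k + 1) (swapVec k 1)) hσ rfl ?_ rfl
      (not_PL_gR _ _ (by rw [plus_swapVec]; simp)) ?_
    · rw [e]; exact field_eq _ hσQ σ φ hφ
    · exact gG_comm_gS _ hσQ _ _ σ (mp_refl _ hσQ σ _ (sv_swapVec σ k 1 (map_one σ)))
  · have hρGO : ρ ∈ GO ⇑(plusQF (k + 1) F) := by
      refine ⟨1, fun w => ?_⟩
      rw [hρ, Cfsg.Agent.Lib.Helper18.Q_reflectionMatrix_mulVec]
      simp
    have hcomm := gG_comm_gS _ hσQ ρ hρGO σ (by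
      rw [hρ]
      exact mp_refl _ hσQ σ v (funext hvσ))
    refine common α σ (gG _ ρ hρGO * gS _ hσQ σ) (gG _ ρ hρGO) hσ ?_ ?_ rfl
      (not_pres_refl _ hQ hL ρ hρGO v hv hρ) ?_
    · show (1 : F ≃+* F) * σ = σ
      rw [one_mul]
    · rw [e, map_mul, ← lin_eq _ ρ hρGO γ hγ, ← field_eq _ hσQ σ φ hφ]
    · rw [mul_assoc, ← hcomm]

end plus

end Cfsg.Agent.Lib.Helper66.OGrp
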