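import Mathlib
import Cfsg.Agent.Lib.Helper30.SZ

/-!
# BG146 rung COUNT: the double count of B-G Lemma 14.6
-/

set_option autoImplicit false
set_option linter.unusedSectionVars false
set_option linter.unusedVariables false
set_option linter.style.haveILetI false

namespace Cfsg.Agent.Lib.Helper66.BG146

open Subgroup Cfsg.Agent.Lib.Helper30

theorem card_ne_one {G : Type*} [Group G] [Finite G] (H : Subgroup G) :
    Nat.card {t : G // t ∈ H ∧ t ≠ 1} = Nat.card H - 1 := by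
  classical
  have e : {t : G // t ∈ H ∧ t ≠ 1} ≃ {x : H // x ≠ 1} :=
    { toFun := fun t => ⟨⟨t.1, t.2.1⟩, fun h => t.2.2 (congrArg Subtype.val h)⟩
      invFun := fun x => ⟨x.1.1, x.1.2, fun h => x.2 (Subtype.ext h)⟩
      left_inv := fun t => rfl
      right_inv := fun x => rfl }
  rw [Nat.card_congr e]
  haveI := Fintype.ofFinite H
  rw [Nat.card_eq_fintype_card, Fintype.card_subtype_compl, Fintype.card_subtype_eq,
    ← Nat.card_eq_fintype_card]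

theorem card_tilde {G : Type*} [Group G] [Finite G] (M S : Subgroup G) (R : G → G → Subgroup G)
    (hself : ∀ g : G, cj g M = M → g ∈ M)
    (hSM : ∀ m ∈ M, cj m S = S)
    (hcompat : ∀ y y' x : G, x ∈ cj y S → x ∈ cj y' S → x ≠ 1 → R y x = R y' x)
    (hreg : ∀ y x : G, x ∈ cj y S → x ≠ 1 → ∀ g : G, x ∈ cj g S → ∃! r : G, r ∈ R y x ∧ cj r (cj y M) = cj g M)
    (hback : ∀ y x : G, x ∈ cj y S → x ≠ 1 → ∀ r ∈ R y x, x ∈ cj r (cj y S))
    (hdisj : ∀ y x y' x' : G, x ∈ cj y S → x ≠ 1 → x' ∈ cj y' S → x' ≠ 1 → ∀ r ∈ R y x, ∀ r' ∈ R y' x', x * r = x' * r' → x = x') :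
    Set.ncard {t : G | ∃ y x : G, x ∈ cj y S ∧ x ≠ 1 ∧ ∃ r ∈ R y x, t = x * r} = (Nat.card S - 1) * M.index := by
  classical
  -- a base point for every x
  obtain ⟨Y, hY⟩ : ∃ Y : G → G, ∀ x : G, (∃ y, x ∈ cj y S) → x ∈ cj (Y x) S :=
    ⟨fun x => if h : ∃ y, x ∈ cj y S then h.choose else 1, fun x h => by
      simp only [dif_pos h]
      exact h.choose_spec⟩
  have hout : ∀ g : G, cj (QuotientGroup.mk g : G ⧸ M).out S = cj g S := by
    intro g
    obtain ⟨m, hm⟩ := QuotientGroup.mk_out_eq_mul M g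
    rw [hm, cj_mul, hSM m.1 m.2]
  have hmk : ∀ a b : G, cj a M = cj b M ↔ (QuotientGroup.mk a : G ⧸ M) = QuotientGroup.mk b := by
    intro a b
    rw [QuotientGroup.eq]
    constructor
    · intro h
      apply hself
      rw [cj_mul, ← h, cj_inv_cj]
    · intro h
      have : b = a * (a⁻¹ * b) := by group
      rw [this, cj_mul, cj_eq_of_mem h]
  obtain ⟨T, hT⟩ : ∃ T : Set G,
      T = {t : G | ∃ y x : G, x ∈ cj y S ∧ x ≠ 1 ∧ ∃ r ∈ R y x, t = x * r} := ⟨_, rfl⟩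
  rw [← hT, ← Nat.card_coe_set_eq]
  let f : {p : G × G // p.1 ≠ 1 ∧ (∃ y, p.1 ∈ cj y S) ∧ p.2 ∈ R (Y p.1) p.1} → T :=
    fun p => ⟨p.1.1 * p.1.2, by
      rw [hT]
      exact ⟨Y p.1.1, p.1.1, hY _ p.2.2.1, p.2.1, p.1.2, p.2.2.2, rfl⟩⟩
  have hf : Function.Bijective f := by
    constructor
    · rintro ⟨⟨x, r⟩, hx1, hx, hr⟩ ⟨⟨x', r'⟩, hx1', hx', hr'⟩ h
      have h1 : x * r = x' * r' := congrArg Subtype.val h
      have h2 : x = x' := hdisj _ _ _ _ (hY x hx) hx1 (hY x' hx') hx1' r hr r' hr' h1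
      subst h2
      have h3 : r = r' := mul_left_cancel h1
      subst h3
      rfl
    · rintro ⟨t, ht⟩
      have ht' := ht
      rw [hT] at ht'
      obtain ⟨y, x, hx, hx1, r, hr, rfl⟩ := ht'
      refine ⟨⟨(x, r), hx1, ⟨y, hx⟩, ?_⟩, rfl⟩
      rw [← hcompat y (Y x) x hx (hY x ⟨y, hx⟩) hx1]
      exact hr
  let g : {p : G × G // p.1 ≠ 1 ∧ (∃ y, p.1 ∈ cj y S) ∧ p.2 ∈ R (Y p.1) p.1} →
      (Σ c : G ⧸ M, {x : G // x ∈ cj c.out S ∧ x ≠ 1}) :=
    fun p => ⟨QuotientGroup.mk (p.1.2 * Y p.1.1), p.1.1, by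
      rw [hout, cj_mul]
      exact hback _ _ (hY _ p.2.2.1) p.2.1 _ p.2.2.2, p.2.1⟩
  have hg : Function.Bijective g := by
    constructor
    · rintro ⟨⟨x, r⟩, hx1, hx, hr⟩ ⟨⟨x', r'⟩, hx1', hx', hr'⟩ h
      have h1 : x = x' :=
        congrArg (fun s : (Σ c : G ⧸ M, {x : G // x ∈ cj c.out S ∧ x ≠ 1}) => s.2.1) h
      subst h1
      have h2 : (QuotientGroup.mk (r * Y x) : G ⧸ M) = QuotientGroup.mk (r' * Y x) :=
        congrArg Sigma.fst h
      rw [← hmk, cj_mul, cj_mul] at h2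
      have hx'' : x ∈ cj (r' * Y x) S := by
        rw [cj_mul]
        exact hback _ _ (hY x hx) hx1 _ hr'
      obtain ⟨r0, -, hr0⟩ := hreg (Y x) x (hY x hx) hx1 (r' * Y x) hx''
      have e1 := hr0 r ⟨hr, by rw [h2, cj_mul]⟩
      have e2 := hr0 r' ⟨hr', by rw [cj_mul]⟩
      have h3 : r = r' := e1.trans e2.symm
      subst h3
      rfl
    · rintro ⟨c, x, hx, hx1⟩
      obtain ⟨r, ⟨hr, hrM⟩, -⟩ := hreg (Y x) x (hY x ⟨_, hx⟩) hx1 c.out hx
      rw [← cj_mul, hmk, QuotientGroup.out_eq'] at hrM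
      refine ⟨⟨(x, r), hx1, ⟨_, hx⟩, hr⟩, ?_⟩
      subst hrM
      rfl
  rw [← Nat.card_congr (Equiv.ofBijective f hf), Nat.card_congr (Equiv.ofBijective g hg)]
  haveI := Fintype.ofFinite (G ⧸ M)
  rw [Nat.card_sigma]
  simp only [card_ne_one, card_cj, Finset.sum_const, Finset.card_univ, smul_eq_mul]
  rw [← Nat.card_eq_fintype_card, Subgroup.index_eq_card, mul_comm]

end Cfsg.Agent.Lib.Helper66.BG146
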