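import Mathlib
import Cfsg.Agent.Lib.Helper54.CoprimeGen

set_option autoImplicit false
set_option linter.style.haveILetI false
set_option linter.unusedSectionVars false

/-!
# A rank bound

`X` is a `2`-group with `x ^ 2 ∈ E` for all `x ∈ X`, `E` central of exponent `2`.  An abelian group `A`
of odd prime exponent `r` acting faithfully on `X`, trivially on `E`, such that the squaring map is
"anisotropic" (`x ^ 2 = 1 → x ∈ E`-like condition) has order at most `r ^ n` where `|E| = 2 ^ n`.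
-/

namespace Cfsg.Agent.Lib.Helper66

open Subgroup
open scoped commutatorElement

variable {G : Type*} [Group G] [Finite G]

/-- the fixed data -/
structure SqData (E X : Subgroup G) : Prop where
  E2 : ∀ e ∈ E, e ^ 2 = 1
  Ec : ∀ e ∈ E, ∀ x ∈ X, e * x = x * e
  sq : ∀ x ∈ X, x ^ 2 ∈ E

namespace SqData

variable {E X : Subgroup G}

theorem comm_mem (h : SqData E X) {x y : G} (hx : x ∈ X) (hy : y ∈ X) : ⁅x, y⁆ ∈ E := by
  have h1 : ⁅x, y⁆ = (x * y) ^ 2 * (y⁻¹ * (x⁻¹) ^ 2 * y) * (y⁻¹) ^ 2 := by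
    rw [commutatorElement_def, pow_two, pow_two, pow_two]; group
  have h2 : y⁻¹ * (x⁻¹) ^ 2 * y = (x⁻¹) ^ 2 := by
    have := h.Ec _ (h.sq _ (inv_mem hx)) y hy
    rw [mul_assoc, this, inv_mul_cancel_left]
  rw [h1, h2]
  exact mul_mem (mul_mem (h.sq _ (mul_mem hx hy)) (h.sq _ (inv_mem hx))) (h.sq _ (inv_mem hy))

theorem isPGroup (h : SqData E X) : IsPGroup 2 X := by
  intro x
  refine ⟨2, ?_⟩
  apply Subtype.ext
  have h1 := h.E2 _ (h.sq x x.2)
  rw [← pow_mul] at h1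
  simpa using h1

theorem E_comm (h : SqData E X) {a b : G} (ha : a ∈ E) (hb : b ∈ E) : a * b = b * a := by
  have h1 := h.E2 _ (mul_mem ha hb)
  have h2 := h.E2 _ ha
  have h3 := h.E2 _ hb
  rw [pow_two] at h1 h2 h3
  have ha' : a⁻¹ = a := inv_eq_of_mul_eq_one_left h2
  have hb' : b⁻¹ = b := inv_eq_of_mul_eq_one_left h3
  have h4 : (a * b)⁻¹ = a * b := inv_eq_of_mul_eq_one_left h1
  rw [← h4, mul_inv_rev, ha', hb']

/-- adjoin `e` to `E₀` -/
def adj (h : SqData E X) (E₀ : Subgroup G) (hE₀ : E₀ ≤ E) (e : G) (he : e ∈ E) : Subgroup G where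
  carrier := {y | y ∈ E ∧ (y ∈ E₀ ∨ y * e ∈ E₀)}
  one_mem' := ⟨one_mem _, Or.inl (one_mem _)⟩
  mul_mem' := by
    rintro a b ⟨ha, ha'⟩ ⟨hb, hb'⟩
    refine ⟨mul_mem ha hb, ?_⟩
    have hee : e * e = 1 := by rw [← pow_two]; exact h.E2 e he
    rcases ha' with ha' | ha' <;> rcases hb' with hb' | hb'
    · exact Or.inl (mul_mem ha' hb')
    · right; rw [mul_assoc]; exact mul_mem ha' hb'
    · right
      rw [mul_assoc, h.E_comm hb he, ← mul_assoc]; exact mul_mem ha' hb'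
    · left
      have : a * b = (a * e) * (b * e) := by
        rw [mul_assoc a e, ← mul_assoc e b, h.E_comm he hb, mul_assoc b, hee, mul_one]
      rw [this]; exact mul_mem ha' hb'
  inv_mem' := by
    rintro a ⟨ha, ha'⟩
    have h2 := h.E2 _ ha
    rw [pow_two] at h2
    have : a⁻¹ = a := inv_eq_of_mul_eq_one_left h2
    rw [this]
    exact ⟨ha, ha'⟩

end SqData

theorem conj_mem_inf_centralizer {A X' H : Subgroup G} (hAX : A ≤ normalizer (X' : Set G))
    (hAc : ∀ a ∈ A, ∀ b ∈ A, a * b = b * a) (hHA : H ≤ A) {b : G} (hb : b ∈ A) :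
    b ∈ normalizer ((X' ⊓ centralizer (H : Set G) : Subgroup G) : Set G) := by
  have key : ∀ c ∈ A, ∀ x ∈ X' ⊓ centralizer (H : Set G), c * x * c⁻¹ ∈ X' ⊓ centralizer (H : Set G) := by
    intro c hc x hx
    refine mem_inf.2 ⟨(mem_normalizer_iff.1 (hAX hc) x).1 hx.1, ?_⟩
    rw [mem_centralizer_iff]
    intro k hk
    have h1 : k * x = x * k := mem_centralizer_iff.1 hx.2 k hk
    have h2 : c * k = k * c := hAc c hc k (hHA hk)
    have h3 : c⁻¹ * k = k * c⁻¹ := hAc _ (inv_mem hc) k (hHA hk)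
    calc k * (c * x * c⁻¹) = (k * c) * x * c⁻¹ := by group
      _ = c * (k * x) * c⁻¹ := by rw [← h2]; group
      _ = c * x * (k * c⁻¹) := by rw [h1]; group
      _ = c * x * c⁻¹ * k := by rw [← h3]; group
  rw [mem_normalizer_iff]
  intro x
  constructor
  · exact key b hb x
  · intro hx
    have := key b⁻¹ (inv_mem hb) _ hx
    simpa [mul_assoc] using this

theorem rank_bound_aux {E X : Subgroup G} (h : SqData E X) (r : ℕ) [hr : Fact r.Prime] (hr2 : r ≠ 2) :
    ∀ (d : ℕ) (A X' F E₀ : Subgroup G), Nat.card E - Nat.card E₀ = d → E₀ ≤ E → X' ≤ X →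
      A ≤ normalizer (X' : Set G) → (∀ a ∈ A, ∀ e ∈ E, a * e = e * a) →
      (∀ a ∈ A, ∀ f ∈ F, a * f = f * a) → (∀ a ∈ A, ∀ b ∈ A, a * b = b * a) → (∀ a ∈ A, a ^ r = 1) →
      (∀ x ∈ X', x ^ 2 ∈ E₀ → x ∈ F) → (∀ a ∈ A, (∀ x ∈ X', a * x = x * a) → a = 1) →
      ∀ k, Nat.card A = r ^ k → 2 ^ k * Nat.card E₀ ≤ Nat.card E := by
  intro d
  induction d using Nat.strong_induction_on with
  | _ d ih =>
  intro A X' F E₀ hd hE₀ hX' hAX hAE hAF hAc hAr hAn hFa k hk
  by_cases hA : A = ⊥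
  · have hk0 : k = 0 := by
      rw [hA, card_bot] at hk
      by_contra hne
      have := Nat.one_lt_pow hne hr.out.one_lt
      omega
    rw [hk0, pow_zero, one_mul]
    exact card_le_of_le hE₀
  have hX2 : IsPGroup 2 X' := h.isPGroup.to_le hX'
  have hcopX : ∀ (B Y : Subgroup G), B ≤ A → Y ≤ X' → (Nat.card B).Coprime (Nat.card Y) := by
    intro B Y hB hY
    obtain ⟨j, hj⟩ := IsPGroup.iff_card.mp (hX2.to_le hY)
    have h1 : Nat.card B ∣ r ^ k := hk ▸ card_dvd_of_le hB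
    rw [hj]
    exact Nat.Coprime.coprime_dvd_left h1
      (Nat.Coprime.pow k j ((Nat.coprime_primes hr.out Nat.prime_two).2 hr2))
  have hXF : ∃ w ∈ X', w ∉ F := by
    by_contra hcon
    push Not at hcon
    apply hA
    rw [eq_bot_iff]
    intro a ha
    rw [mem_bot]
    exact hFa a ha (fun x hx => hAF a ha x (hcon x hx))
  obtain ⟨w₀, hw₀X, hw₀F⟩ := hXF
  obtain ⟨H, hHmax⟩ := Set.Finite.exists_maximal
    (s := {H : Subgroup G | H ≤ A ∧ ∃ w ∈ X', w ∉ F ∧ ∀ h ∈ H, h * w = w * h})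
    (Set.toFinite _) ⟨⊥, bot_le, w₀, hw₀X, hw₀F, by
      intro h hh; rw [mem_bot.1 hh, one_mul, mul_one]⟩
  obtain ⟨hHA, w, hwX, hwF, hHw⟩ := hHmax.prop
  have hmax : ∀ b ∈ A, b ∉ H → ∀ x ∈ X', (∀ h ∈ H, h * x = x * h) → b * x = x * b → x ∈ F := by
    intro b hb hbH x hx hHx hbx
    by_contra hxF
    have hle : H ⊔ zpowers b ≤ centralizer {x} := by
      refine sup_le ?_ (zpowers_le.2 ?_)
      · intro k hk
        exact mem_centralizer_singleton_iff.2 (hHx k hk)
      · exact mem_centralizer_singleton_iff.2 hbx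
    have hmem : H ⊔ zpowers b ∈ {H : Subgroup G | H ≤ A ∧ ∃ w ∈ X', w ∉ F ∧ ∀ h ∈ H, h * w = w * h} :=
      ⟨sup_le hHA (zpowers_le.2 hb), x, hx, hxF,
        fun k hk => mem_centralizer_singleton_iff.1 (hle hk)⟩
    have := hHmax.le_of_ge hmem le_sup_left
    exact hbH (this (mem_sup_right (mem_zpowers b)))
  obtain ⟨K, hK⟩ : ∃ K : Subgroup G, K = X' ⊓ centralizer (H : Set G) := ⟨_, rfl⟩
  have hwK : w ∈ K := by
    rw [hK]
    refine mem_inf.2 ⟨hwX, ?_⟩
    rw [mem_centralizer_iff]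
    intro k hk
    exact hHw k hk
  have hidx : Nat.card A ≤ r * Nat.card H := by
    by_cases hHeq : ∀ b ∈ A, b ∈ H
    · have : A = H := le_antisymm hHeq hHA
      rw [this]
      exact Nat.le_mul_of_pos_left _ hr.out.pos
    push Not at hHeq
    obtain ⟨b₁, hb₁, hb₁H⟩ := hHeq
    have hcl : ∀ b₂ ∈ A, ∃ i : ℕ, b₁ ^ i * b₂ ∈ H := by
      intro b₂ hb₂
      by_contra hcon
      push Not at hcon
      have hKs : Group.IsSolvable K := by
        haveI := (hX2.to_le (hK ▸ inf_le_left : K ≤ X')).isNilpotent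
        infer_instance
      have h1 := Helper54.le_genC_of_isSolvable r (hAc b₁ hb₁ b₂ hb₂ : Commute b₁ b₂) (hAr b₁ hb₁)
        (hAr b₂ hb₂) K hKs (hK ▸ conj_mem_inf_centralizer hAX hAc hHA hb₁)
        (hK ▸ conj_mem_inf_centralizer hAX hAc hHA hb₂) (by
          intro hdvd
          obtain ⟨j, hj⟩ := IsPGroup.iff_card.mp (hX2.to_le (hK ▸ inf_le_left : K ≤ X'))
          rw [hj] at hdvd
          exact hr2 ((Nat.prime_dvd_prime_iff_eq hr.out Nat.prime_two).1
            (hr.out.dvd_of_dvd_pow hdvd)))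
      have h2 : Helper54.genC b₁ b₂ K ≤ F := by
        have aux : ∀ b ∈ A, b ∉ H → K ⊓ centralizer {b} ≤ F := by
          intro b hb hbH x hx
          have hxK : x ∈ X' ⊓ centralizer (H : Set G) := hK ▸ hx.1
          refine hmax b hb hbH x hxK.1 ?_ ?_
          · intro k hk
            exact mem_centralizer_iff.1 hxK.2 k hk
          · exact (mem_centralizer_singleton_iff.1 hx.2).symm
        refine sup_le (aux b₁ hb₁ hb₁H) (iSup_le fun i => ?_)
        exact aux _ (mul_mem (pow_mem hb₁ i) hb₂) (hcon i)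
      exact hwF (h2 (h1 hwK))
    choose! i hi using hcl
    have hi' : ∀ b₂ ∈ A, b₁ ^ (i b₂ % r) * b₂ ∈ H := by
      intro b₂ hb₂
      rw [← pow_eq_pow_mod _ (hAr b₁ hb₁)]
      exact hi b₂ hb₂
    have hinj : Function.Injective (fun a : A =>
        ((⟨i a % r, Nat.mod_lt _ hr.out.pos⟩ : Fin r), (⟨b₁ ^ (i a % r) * a, hi' a a.2⟩ : H))) := by
      intro a a' haa
      simp only [Prod.mk.injEq, Fin.mk.injEq, Subtype.mk.injEq] at haa
      obtain ⟨h1, h2⟩ := haa
      rw [h1] at h2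
      exact Subtype.ext (mul_left_cancel h2)
    have := Nat.card_le_card_of_injective _ hinj
    rwa [Nat.card_prod, Nat.card_fin] at this
  obtain ⟨e, he⟩ : ∃ e, e = w ^ 2 := ⟨_, rfl⟩
  have heE : e ∈ E := he ▸ h.sq w (hX' hwX)
  have heE₀ : e ∉ E₀ := fun h1 => hwF (hAn w hwX (he ▸ h1))
  obtain ⟨E₁, hE₁⟩ : ∃ E₁, E₁ = h.adj E₀ hE₀ e heE := ⟨_, rfl⟩
  have hE₁E : E₁ ≤ E := by rw [hE₁]; exact fun y hy => hy.1
  have hE₀E₁ : E₀ < E₁ := by
    refine lt_of_le_of_ne ?_ ?_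
    · rw [hE₁]; exact fun y hy => ⟨hE₀ hy, Or.inl hy⟩
    · intro heq
      apply heE₀
      rw [heq, hE₁]
      refine ⟨heE, Or.inr ?_⟩
      rw [← pow_two, h.E2 e heE]; exact one_mem _
  have hc1 : 2 * Nat.card E₀ ≤ Nat.card E₁ := by
    obtain ⟨c, hc⟩ := card_dvd_of_le hE₀E₁.le
    have hlt := Helper30.card_lt_of_lt hE₀E₁
    have hpos : 0 < Nat.card E₀ := Nat.card_pos
    rw [hc] at hlt ⊢
    have : 2 ≤ c := by
      by_contra hcon
      have : c ≤ 1 := by omega
      nlinarith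
    nlinarith
  have hc2 : Nat.card E₁ ≤ Nat.card E := card_le_of_le hE₁E
  obtain ⟨k', hk'k, hk'⟩ := (Nat.dvd_prime_pow hr.out).1 (hk ▸ card_dvd_of_le hHA)
  have hkk' : k ≤ k' + 1 := by
    rw [hk, hk', ← pow_succ'] at hidx
    exact (Nat.pow_le_pow_iff_right hr.out.one_lt).1 hidx
  have hHX : H ≤ normalizer (X' : Set G) := hHA.trans hAX
  have hcomle : ⁅X', H⁆ ≤ X' := Helper30.commutator_le_of_le_normalizer hHX
  -- the three subgroup lemma
  have h3 : ⁅⁅X', H⁆, K⁆ = ⊥ := by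
    apply commutator_commutator_eq_bot_of_rotate
    · have : ⁅H, K⁆ = ⊥ := by
        rw [commutator_comm, commutator_eq_bot_iff_le_centralizer, hK]; exact inf_le_right
      rw [this, commutator_bot_left]
    · rw [eq_bot_iff]
      have h4 : ⁅K, X'⁆ ≤ E := by
        rw [commutator_le]
        intro x hx y hy
        exact h.comm_mem (hX' ((hK ▸ hx : x ∈ X' ⊓ centralizer (H : Set G)).1)) (hX' hy)
      have h5 : ⁅E, H⁆ = ⊥ := by
        rw [commutator_eq_bot_iff_le_centralizer]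
        intro y hy
        rw [mem_centralizer_iff]
        intro k hk
        exact hAE k (hHA hk) y hy
      exact (commutator_mono h4 le_rfl).trans h5.le
  have hih := ih (Nat.card E - Nat.card E₁) (by
      have := Helper30.card_lt_of_lt hE₀E₁
      omega) H ⁅X', H⁆ (F ⊔ zpowers w) E₁ rfl hE₁E (hcomle.trans hX')
    (Helper30.le_normalizer_commutator hHX le_normalizer)
    (fun a ha => hAE a (hHA ha))
    (by
      intro a ha f hf
      have hle : F ⊔ zpowers w ≤ centralizer {a} := by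
        refine sup_le ?_ (zpowers_le.2 ?_)
        · intro f hf
          exact mem_centralizer_singleton_iff.2 (hAF a (hHA ha) f hf).symm
        · exact mem_centralizer_singleton_iff.2 (hHw a ha).symm
      exact (mem_centralizer_singleton_iff.1 (hle hf)).symm)
    (fun a ha b hb => hAc a (hHA ha) b (hHA hb))
    (fun a ha => hAr a (hHA ha))
    (by
      intro x hx hx2
      rw [hE₁] at hx2
      rcases hx2.2 with hx2 | hx2
      · exact mem_sup_left (hAn x (hcomle hx) hx2)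
      · have hcomm : Commute x w := by
          have h6 : ⁅x, w⁆ ∈ ⁅⁅X', H⁆, K⁆ := commutator_mem_commutator hx hwK
          rw [h3, mem_bot] at h6
          exact commutatorElement_eq_one_iff_commute.1 h6
        have h7 : (x * w) ^ 2 ∈ E₀ := by rw [hcomm.mul_pow, ← he]; exact hx2
        have h8 := hAn _ (mul_mem (hcomle hx) hwX) h7
        have h9 : x = (x * w) * w⁻¹ := by group
        rw [h9]
        exact mul_mem (mem_sup_left h8) (mem_sup_right (inv_mem (mem_zpowers w))))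
    (by
      intro a ha hcen
      apply hFa a (hHA ha)
      intro x hx
      obtain ⟨m, hm, c, hc, rfl⟩ := Helper30.exists_commutator_mul_centralizer (A := zpowers a)
        (K := X') ((zpowers_le.2 ha).trans hHX) (hcopX _ _ (zpowers_le.2 (hHA ha)) le_rfl)
        (Or.inl inferInstance) hx
      have h1 : a * m = m * a := hcen m (commutator_mono le_rfl (zpowers_le.2 ha) hm)
      have h2 : a * c = c * a := mem_centralizer_iff.1 hc.2 a (mem_zpowers a)
      rw [← mul_assoc, h1, mul_assoc, h2, mul_assoc])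
    k' hk'
  calc 2 ^ k * Nat.card E₀ ≤ 2 ^ (k' + 1) * Nat.card E₀ :=
        Nat.mul_le_mul_right _ (Nat.pow_le_pow_right (by norm_num) hkk')
    _ = 2 ^ k' * (2 * Nat.card E₀) := by ring
    _ ≤ 2 ^ k' * Nat.card E₁ := Nat.mul_le_mul_left _ hc1
    _ ≤ Nat.card E := hih

/-- **Rank bound.** -/
theorem rank_bound {E X A : Subgroup G} (h : SqData E X) (r : ℕ) [hr : Fact r.Prime] (hr2 : r ≠ 2)
    (hAX : A ≤ normalizer (X : Set G)) (hAE : ∀ a ∈ A, ∀ e ∈ E, a * e = e * a)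
    (hAc : ∀ a ∈ A, ∀ b ∈ A, a * b = b * a) (hAr : ∀ a ∈ A, a ^ r = 1)
    (hAn : ∀ x ∈ X, x ^ 2 = 1 → x ∈ E) (hFa : ∀ a ∈ A, (∀ x ∈ X, a * x = x * a) → a = 1)
    (k : ℕ) (hk : Nat.card A = r ^ k) : 2 ^ k ≤ Nat.card E := by
  have := rank_bound_aux h r hr2 _ A X E ⊥ rfl bot_le le_rfl hAX hAE hAE hAc hAr
    (fun x hx hx2 => hAn x hx (mem_bot.1 hx2)) hFa k hk
  rwa [card_bot, mul_one] at this

end Cfsg.Agent.Lib.Helper66
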