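import Mathlib
import Cfsg.Agent.Lib.Helper54.CoprimeGen
import Cfsg.Agent.Lib.Helper66.RankBound

set_option autoImplicit false
set_option linter.style.haveILetI false
set_option linter.unusedSectionVars false

/-!
# Eigen-elements for an elementary abelian `2`-group acting on a solvable group of odd order
-/

namespace Cfsg.Agent.Lib.Helper66

open Subgroup
open scoped commutatorElement

variable {Q : Type*} [Group Q] [Finite Q]

section indep

theorem closure_commute {S : Set Q} (hS : ∀ x ∈ S, ∀ y ∈ S, x * y = y * x) :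
    ∀ x ∈ closure S, ∀ y ∈ closure S, x * y = y * x := by
  intro x hx y hy
  have := isMulCommutative_closure hS
  exact congrArg Subtype.val (this.is_comm.comm (⟨x, hx⟩ : closure S) ⟨y, hy⟩)

theorem closure_pow_eq_one {S : Set Q} (hS : ∀ x ∈ S, ∀ y ∈ S, x * y = y * x) {r : ℕ}
    (hr : ∀ x ∈ S, x ^ r = 1) : ∀ x ∈ closure S, x ^ r = 1 := by
  have hc := closure_commute hS
  let N : Subgroup Q :=
    { carrier := {x | x ∈ closure S ∧ x ^ r = 1}
      one_mem' := ⟨one_mem _, one_pow _⟩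
      mul_mem' := by
        rintro a b ⟨ha, ha'⟩ ⟨hb, hb'⟩
        refine ⟨mul_mem ha hb, ?_⟩
        have hcab : Commute a b := hc a ha b hb
        rw [hcab.mul_pow, ha', hb', one_mul]
      inv_mem' := by
        rintro a ⟨ha, ha'⟩
        exact ⟨inv_mem ha, by rw [inv_pow, ha', inv_one]⟩ }
  have hle : closure S ≤ N := (closure_le N).2 (fun x hx => ⟨subset_closure hx, hr x hx⟩)
  exact fun x hx => (hle hx).2

theorem closure_inverted {S : Set Q} (hS : ∀ x ∈ S, ∀ y ∈ S, x * y = y * x) {s : Q}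
    (hs : ∀ x ∈ S, s * x * s⁻¹ = x⁻¹) : ∀ x ∈ closure S, s * x * s⁻¹ = x⁻¹ := by
  have hc := closure_commute hS
  let N : Subgroup Q :=
    { carrier := {x | x ∈ closure S ∧ s * x * s⁻¹ = x⁻¹}
      one_mem' := ⟨one_mem _, by simp⟩
      mul_mem' := by
        rintro a b ⟨ha, ha'⟩ ⟨hb, hb'⟩
        refine ⟨mul_mem ha hb, ?_⟩
        have : s * (a * b) * s⁻¹ = (s * a * s⁻¹) * (s * b * s⁻¹) := by group
        rw [this, ha', hb', hc a ha b hb, mul_inv_rev]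
      inv_mem' := by
        rintro a ⟨ha, ha'⟩
        refine ⟨inv_mem ha, ?_⟩
        have : s * a⁻¹ * s⁻¹ = (s * a * s⁻¹)⁻¹ := by group
        rw [this, ha'] }
  have hle : closure S ≤ N := (closure_le N).2 (fun x hx => ⟨subset_closure hx, hs x hx⟩)
  exact fun x hx => (hle hx).2

theorem card_mul_le_of_disjoint {B C D : Subgroup Q} (hB : B ≤ D) (hC : C ≤ D) (h : B ⊓ C = ⊥) :
    Nat.card B * Nat.card C ≤ Nat.card D := by
  have hinj : Function.Injective (fun x : B × C => (⟨x.1 * x.2, mul_mem (hB x.1.2) (hC x.2.2)⟩ : D)) := by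
    rintro ⟨b, c⟩ ⟨b', c'⟩ hh
    simp only [Subtype.mk.injEq] at hh
    have h1 : (b' : Q)⁻¹ * b = c' * (c : Q)⁻¹ := by
      have : (b' : Q)⁻¹ * (b * c) * (c : Q)⁻¹ = (b' : Q)⁻¹ * (b' * c') * (c : Q)⁻¹ := by rw [hh]
      simpa [mul_assoc] using this
    have h2 : (b' : Q)⁻¹ * b ∈ B ⊓ C :=
      mem_inf.2 ⟨mul_mem (inv_mem b'.2) b.2, h1 ▸ mul_mem c'.2 (inv_mem c.2)⟩
    rw [h, mem_bot] at h2
    have h3 : (b : Q) = b' := (inv_mul_eq_one.1 h2).symm
    have h4 : (c : Q) = c' := by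
      rw [h2] at h1
      exact (mul_inv_eq_one.1 h1.symm).symm
    exact Prod.ext (Subtype.ext h3) (Subtype.ext h4)
  have := Nat.card_le_card_of_injective _ hinj
  rwa [Nat.card_prod] at this

/-- eigen-elements for pairwise distinct characters are independent -/
theorem eigen_indep {ι : Type*} [DecidableEq ι] (a : ι → Q) (χ : ι → Q → Prop) (T : Subgroup Q) (r : ℕ)
    (hr2 : Odd r) (hcomm : ∀ i j, a i * a j = a j * a i) (hord : ∀ i, orderOf (a i) = r)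
    (hfix : ∀ i, ∀ s ∈ T, χ i s → s * a i * s⁻¹ = a i)
    (hinv : ∀ i, ∀ s ∈ T, ¬ χ i s → s * a i * s⁻¹ = (a i)⁻¹)
    (hsep : ∀ i j, i ≠ j → ∃ s ∈ T, χ j s ∧ ¬ χ i s) :
    ∀ (n : ℕ) (I : Finset ι), I.card = n → r ^ n ≤ Nat.card (closure (a '' (I : Set ι))) := by
  classical
  intro n
  induction n using Nat.strong_induction_on with
  | _ n ih =>
  intro I hI
  have hSc : ∀ J : Finset ι, ∀ x ∈ a '' (J : Set ι), ∀ y ∈ a '' (J : Set ι), x * y = y * x := by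
    rintro J _ ⟨i, _, rfl⟩ _ ⟨j, _, rfl⟩
    exact hcomm i j
  rcases Nat.lt_or_ge n 2 with hn | hn
  · interval_cases n
    · rw [pow_zero]; exact Nat.card_pos
    · obtain ⟨i, rfl⟩ := Finset.card_eq_one.1 hI
      rw [pow_one]
      simp only [Finset.coe_singleton, Set.image_singleton]
      rw [← zpowers_eq_closure, Nat.card_zpowers, hord]
  · obtain ⟨i, hi, j, hj, hij⟩ := Finset.one_lt_card.1 (by omega : 1 < I.card)
    obtain ⟨s, hsT, hsj, hsi⟩ := hsep i j hij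
    obtain ⟨Ip, hIp⟩ : ∃ Ip, Ip = I.filter (fun k => χ k s) := ⟨_, rfl⟩
    obtain ⟨Im, hIm⟩ : ∃ Im, Im = I.filter (fun k => ¬ χ k s) := ⟨_, rfl⟩
    have hcard : Ip.card + Im.card = n := by
      rw [hIp, hIm, Finset.card_filter_add_card_filter_not, hI]
    have hIp0 : 0 < Ip.card := Finset.card_pos.2 ⟨j, by rw [hIp]; exact Finset.mem_filter.2 ⟨hj, hsj⟩⟩
    have hIm0 : 0 < Im.card := Finset.card_pos.2 ⟨i, by rw [hIm]; exact Finset.mem_filter.2 ⟨hi, hsi⟩⟩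
    have h1 := ih Ip.card (by omega) Ip rfl
    have h2 := ih Im.card (by omega) Im rfl
    have hBp : closure (a '' (Ip : Set ι)) ≤ closure (a '' (I : Set ι)) := by
      apply Subgroup.closure_mono
      apply Set.image_mono
      rw [hIp]; exact_mod_cast Finset.filter_subset _ _
    have hBm : closure (a '' (Im : Set ι)) ≤ closure (a '' (I : Set ι)) := by
      apply Subgroup.closure_mono
      apply Set.image_mono
      rw [hIm]; exact_mod_cast Finset.filter_subset _ _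
    have hdisj : closure (a '' (Ip : Set ι)) ⊓ closure (a '' (Im : Set ι)) = ⊥ := by
      rw [eq_bot_iff]
      intro x hx
      rw [mem_bot]
      have hx1 : s * x * s⁻¹ = x := by
        have hle : closure (a '' (Ip : Set ι)) ≤ centralizer {s} := by
          rw [closure_le]
          rintro _ ⟨k, hk, rfl⟩
          have hk' : k ∈ I.filter (fun k => χ k s) := by rw [← hIp]; exact hk
          have := hfix k s hsT (Finset.mem_filter.1 hk').2
          exact mem_centralizer_singleton_iff.2 (mul_inv_eq_iff_eq_mul.1 this).symm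
        have := mem_centralizer_singleton_iff.1 (hle hx.1)
        rw [← this, mul_inv_cancel_right]
      have hx2 : s * x * s⁻¹ = x⁻¹ := by
        apply closure_inverted (hSc Im) _ x hx.2
        rintro _ ⟨k, hk, rfl⟩
        have hk' : k ∈ I.filter (fun k => ¬ χ k s) := by rw [← hIm]; exact hk
        exact hinv k s hsT (Finset.mem_filter.1 hk').2
      have hx3 : x ^ 2 = 1 := by
        rw [pow_two]
        nth_rewrite 1 [← hx1]
        rw [hx2, inv_mul_cancel]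
      have hx4 : x ^ r = 1 := by
        apply closure_pow_eq_one (hSc Ip) _ x hx.1
        rintro _ ⟨k, _, rfl⟩
        rw [← hord k]; exact pow_orderOf_eq_one _
      obtain ⟨m, hm⟩ := hr2
      rw [hm, pow_succ, pow_mul, hx3, one_pow, one_mul] at hx4
      exact hx4
    calc r ^ n = r ^ Ip.card * r ^ Im.card := by rw [← pow_add, hcard]
      _ ≤ Nat.card (closure (a '' (Ip : Set ι))) * Nat.card (closure (a '' (Im : Set ι))) :=
          Nat.mul_le_mul h1 h2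
      _ ≤ _ := card_mul_le_of_disjoint hBp hBm hdisj

end indep

section eigen

structure EigenData (L T Wb : Subgroup Q) : Prop where
  TL : T ≤ normalizer (L : Set Q)
  WL : Wb ≤ normalizer (L : Set Q)
  Lsol : Group.IsSolvable L
  Lodd : (Nat.card L).Coprime 2
  T2 : ∀ s ∈ T, s * s = 1
  Tc : ∀ s ∈ T, ∀ s' ∈ T, s * s' = s' * s
  WT : Wb ≤ normalizer (T : Set Q)
  nc : ¬ T ≤ centralizer (L : Set Q)

structure EigenOut (L T Wb T₀ : Subgroup Q) (a₀ : Q) (r : ℕ) : Prop where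
  hr : r.Prime
  hr2 : r ≠ 2
  le : T₀ ≤ T
  idx : ∀ s ∈ T, s ∉ T₀ → ∀ s' ∈ T, s' ∉ T₀ → s * s' ∈ T₀
  ne : ∃ s ∈ T, s ∉ T₀
  aL : a₀ ∈ L
  ord : orderOf a₀ = r
  cen : ∀ s ∈ T₀, s * a₀ * s⁻¹ = a₀
  inv : ∀ s ∈ T, s ∉ T₀ → s * a₀ * s⁻¹ = a₀⁻¹
  comm : ∀ w ∈ Wb, ∀ w' ∈ Wb, (∃ s ∈ T, w⁻¹ * s * w ∉ T₀ ∧ w'⁻¹ * s * w' ∈ T₀) →
    (w * a₀ * w⁻¹) * (w' * a₀ * w'⁻¹) = (w' * a₀ * w'⁻¹) * (w * a₀ * w⁻¹)

theorem eq_one_of_sq_of_odd {L : Subgroup Q} (hL : (Nat.card L).Coprime 2) {c : Q} (hc : c ∈ L)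
    (h2 : c ^ 2 = 1) : c = 1 := by
  have h1 : orderOf c ∣ 2 := orderOf_dvd_of_pow_eq_one h2
  have h3 : orderOf c ∣ Nat.card L := by
    have := orderOf_dvd_natCard (⟨c, hc⟩ : L)
    rwa [Subgroup.orderOf_mk] at this
  have h4 : orderOf c = 1 := Nat.eq_one_of_dvd_coprimes hL h3 h1
  exact orderOf_eq_one_iff.1 h4

theorem exists_eigen {L T Wb : Subgroup Q} (h : EigenData L T Wb) :
    ∃ (T₀ : Subgroup Q) (a₀ : Q) (r : ℕ), EigenOut L T Wb T₀ a₀ r := by
  have hT2 : IsPGroup 2 T := by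
    intro s
    refine ⟨1, ?_⟩
    apply Subtype.ext
    have := h.T2 s s.2
    simpa [pow_two] using this
  have hTsol : Group.IsSolvable T := by
    haveI := hT2.isNilpotent
    infer_instance
  have hcop : ∀ (B Y : Subgroup Q), B ≤ T → Y ≤ L → (Nat.card B).Coprime (Nat.card Y) := by
    intro B Y hB hY
    obtain ⟨j, hj⟩ := IsPGroup.iff_card.mp (hT2.to_le hB)
    rw [hj]
    exact (Nat.Coprime.pow_right j (Nat.Coprime.coprime_dvd_left (card_dvd_of_le hY) h.Lodd)).symm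
  -- minimal `Y`
  obtain ⟨Y, hYmin⟩ := Set.Finite.exists_minimal
    (s := {Y : Subgroup Q | Y ≤ L ∧ T ≤ normalizer (Y : Set Q) ∧ Wb ≤ normalizer (Y : Set Q) ∧
      ¬ T ≤ centralizer (Y : Set Q)})
    (Set.toFinite _) ⟨L, le_rfl, h.TL, h.WL, h.nc⟩
  obtain ⟨hYL, hTY, hWY, hnc⟩ := hYmin.prop
  have hYsol : Group.IsSolvable Y := Helper30.isSolvable_of_le hYL h.Lsol
  have hcomle : ⁅Y, T⁆ ≤ Y := Helper30.commutator_le_of_le_normalizer hTY
  have hYT : ⁅Y, T⁆ = Y := by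
    apply le_antisymm hcomle
    apply hYmin.le_of_le _ hcomle
    refine ⟨hcomle.trans hYL, Helper30.le_normalizer_commutator hTY le_normalizer,
      Helper30.le_normalizer_commutator hWY h.WT, ?_⟩
    intro hcen
    apply hnc
    rw [le_centralizer_iff]
    rw [le_centralizer_iff] at hcen
    have h1 := Helper30.commutator_sup_centralizer hTY (hcop T Y le_rfl hYL) (Or.inl hTsol)
    rw [← h1]
    exact sup_le hcen inf_le_right
  have hYbot : Y ≠ ⊥ := by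
    rintro rfl
    apply hnc
    intro s _
    rw [mem_centralizer_iff]
    intro y hy
    rw [mem_bot.1 hy, one_mul, mul_one]
  have hZlt : ⁅Y, Y⁆ < Y := by
    have : Nontrivial Y := (nontrivial_iff_ne_bot Y).mpr hYbot
    have h1 := Group.IsSolvable.commutator_lt_top_of_nontrivial Y
    rw [← Helper54.map_subtype_commutator_eq]
    conv_rhs => rw [← Y.range_subtype, MonoidHom.range_eq_map]
    exact (map_subtype_lt_map_subtype).mpr h1
  have hTZ : T ≤ centralizer ((⁅Y, Y⁆ : Subgroup Q) : Set Q) := by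
    by_contra hcon
    have := hYmin.le_of_le (y := ⁅Y, Y⁆) ⟨hZlt.le.trans hYL, Helper30.le_normalizer_commutator hTY hTY,
      Helper30.le_normalizer_commutator hWY hWY, hcon⟩ hZlt.le
    exact absurd hZlt (not_lt_of_ge this)
  have hZT : ⁅⁅Y, Y⁆, T⁆ = ⊥ := by
    rw [commutator_eq_bot_iff_le_centralizer, le_centralizer_iff]; exact hTZ
  have hYZ : ⁅Y, ⁅Y, Y⁆⁆ = ⊥ := by
    have h1 : ⁅⁅T, Y⁆, ⁅Y, Y⁆⁆ = ⊥ := by
      apply commutator_commutator_eq_bot_of_rotate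
      · rw [eq_bot_iff, ← hZT]
        apply commutator_mono _ le_rfl
        rw [commutator_le]
        intro y hy z hz
        exact commutator_mem_commutator hy (hZlt.le hz)
      · rw [hZT, commutator_bot_left]
    rwa [commutator_comm T Y, hYT] at h1
  -- maximal `T₀`
  obtain ⟨T₀, hTmax⟩ := Set.Finite.exists_maximal
    (s := {T₀ : Subgroup Q | T₀ ≤ T ∧
      ¬ T ≤ centralizer ((Y ⊓ centralizer (T₀ : Set Q) : Subgroup Q) : Set Q)})
    (Set.toFinite _) ⟨⊥, bot_le, by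
      intro hcon
      apply hnc
      refine hcon.trans (centralizer_le ?_)
      intro y hy
      refine mem_inf.2 ⟨hy, ?_⟩
      rw [mem_centralizer_iff]
      intro k hk
      rw [mem_bot.1 hk, one_mul, mul_one]⟩
  obtain ⟨hT₀T, hT₀nc⟩ := hTmax.prop
  obtain ⟨Y₁, hY₁⟩ : ∃ Y₁ : Subgroup Q, Y₁ = Y ⊓ centralizer (T₀ : Set Q) := ⟨_, rfl⟩
  rw [← hY₁] at hT₀nc
  have hY₁Y : Y₁ ≤ Y := hY₁ ▸ inf_le_left
  have hTY₁ : T ≤ normalizer (Y₁ : Set Q) := by
    intro s hs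
    rw [hY₁]
    exact conj_mem_inf_centralizer hTY h.Tc hT₀T hs
  have haux : ∀ s ∈ T, s ∉ T₀ → Y₁ ⊓ centralizer {s} ≤ centralizer (T : Set Q) := by
    intro s hs hsT₀
    have h1 : T ≤ centralizer ((Y ⊓ centralizer ((T₀ ⊔ zpowers s : Subgroup Q) : Set Q) : Subgroup Q)
        : Set Q) := by
      by_contra hcon
      have := hTmax.le_of_ge (y := T₀ ⊔ zpowers s) ⟨sup_le hT₀T (zpowers_le.2 hs), hcon⟩ le_sup_left
      exact hsT₀ (this (mem_sup_right (mem_zpowers s)))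
    rw [le_centralizer_iff] at h1
    refine le_trans ?_ h1
    intro x hx
    have hx1 : x ∈ Y ⊓ centralizer (T₀ : Set Q) := hY₁ ▸ hx.1
    refine mem_inf.2 ⟨hx1.1, ?_⟩
    have hle : T₀ ⊔ zpowers s ≤ centralizer {x} := by
      refine sup_le ?_ (zpowers_le.2 ?_)
      · intro k hk
        exact mem_centralizer_singleton_iff.2 (mem_centralizer_iff.1 hx1.2 k hk)
      · exact mem_centralizer_singleton_iff.2 (mem_centralizer_singleton_iff.1 hx.2).symm
    rw [mem_centralizer_iff]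
    intro k hk
    exact mem_centralizer_singleton_iff.1 (hle hk)
  have hne : ∃ s ∈ T, s ∉ T₀ := by
    by_contra hcon
    push Not at hcon
    apply hT₀nc
    have : T₀ = T := le_antisymm hT₀T hcon
    rw [le_centralizer_iff, hY₁, this]
    exact inf_le_right
  have hidx : ∀ s ∈ T, s ∉ T₀ → ∀ s' ∈ T, s' ∉ T₀ → s * s' ∈ T₀ := by
    intro s₁ hs₁ hs₁' s₂ hs₂ hs₂'
    by_contra hcon
    apply hT₀nc
    rw [le_centralizer_iff]
    have h1 := Helper54.le_genC_of_isSolvable 2 (h.Tc s₁ hs₁ s₂ hs₂ : Commute s₁ s₂)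
      (by rw [pow_two]; exact h.T2 s₁ hs₁) (by rw [pow_two]; exact h.T2 s₂ hs₂) Y₁
      (Helper30.isSolvable_of_le hY₁Y hYsol) (hTY₁ hs₁) (hTY₁ hs₂) (by
        intro hd
        have h2 : (Nat.card Y₁).Coprime 2 :=
          Nat.Coprime.coprime_dvd_left (card_dvd_of_le (hY₁Y.trans hYL)) h.Lodd
        have h3 : 2 ∣ Nat.gcd (Nat.card Y₁) 2 := Nat.dvd_gcd hd dvd_rfl
        rw [h2] at h3
        omega)
    refine h1.trans (sup_le (haux s₁ hs₁ hs₁') (iSup_le fun i => ?_))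
    rcases Nat.even_or_odd' i with ⟨m, hm | hm⟩
    · have : s₁ ^ i = 1 := by rw [hm, pow_mul, pow_two, h.T2 s₁ hs₁, one_pow]
      rw [this, one_mul]
      exact haux s₂ hs₂ hs₂'
    · have : s₁ ^ i = s₁ := by rw [hm, pow_succ, pow_mul, pow_two, h.T2 s₁ hs₁, one_pow, one_mul]
      rw [this]
      exact haux _ (mul_mem hs₁ hs₂) hcon
  -- the eigen-element
  have hex : ∃ s ∈ T, ∃ y ∈ Y₁, s * y * s⁻¹ ≠ y := by
    by_contra hcon
    push Not at hcon
    apply hT₀nc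
    intro s hs
    rw [mem_centralizer_iff]
    intro y hy
    exact (mul_inv_eq_iff_eq_mul.1 (hcon s hs y hy)).symm
  obtain ⟨s, hs, y, hy, hsy⟩ := hex
  have hY₁cen : ∀ k ∈ T₀, ∀ x ∈ Y₁, k * x * k⁻¹ = x := by
    intro k hk x hx
    have hx1 : x ∈ Y ⊓ centralizer (T₀ : Set Q) := hY₁ ▸ hx
    rw [mem_centralizer_iff.1 hx1.2 k hk, mul_inv_cancel_right]
  have hsT₀ : s ∉ T₀ := fun hk => hsy (hY₁cen s hk y hy)
  have hsinv : s⁻¹ = s := inv_eq_of_mul_eq_one_left (h.T2 s hs)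
  obtain ⟨b, hb⟩ : ∃ b, b = y⁻¹ * (s * y * s⁻¹) := ⟨_, rfl⟩
  have hbY₁ : b ∈ Y₁ := by
    rw [hb]; exact mul_mem (inv_mem hy) ((mem_normalizer_iff.1 (hTY₁ hs) y).1 hy)
  have hb1 : b ≠ 1 := by
    intro h1
    rw [hb, inv_mul_eq_one] at h1
    exact hsy h1.symm
  have hbs : s * b * s⁻¹ = b⁻¹ := by
    have hss : s * s = 1 := h.T2 s hs
    have e1 : s * b * s⁻¹ = (s * y * s⁻¹)⁻¹ * ((s * s) * y * (s * s)⁻¹) := by rw [hb]; group
    rw [e1, hss, one_mul, inv_one, mul_one, hb]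
    group
  have hbinv : ∀ s' ∈ T, s' ∉ T₀ → s' * b * s'⁻¹ = b⁻¹ := by
    intro s' hs' hs'T₀
    have h1 := hidx s hs hsT₀ s' hs' hs'T₀
    have h2 : s' = s * (s * s') := by rw [← mul_assoc, h.T2 s hs, one_mul]
    have h3 : s' * b * s'⁻¹ = s * ((s * s') * b * (s * s')⁻¹) * s⁻¹ := by
      conv_lhs => rw [h2]
      group
    rw [h3, hY₁cen _ h1 b hbY₁, hbs]
  have hbL : b ∈ L := hYL (hY₁Y hbY₁)
  have hob : orderOf b ≠ 1 := fun h1 => hb1 (orderOf_eq_one_iff.1 h1)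
  obtain ⟨r, hr, hrd⟩ := Nat.exists_prime_and_dvd hob
  obtain ⟨a₀, ha₀⟩ : ∃ a₀, a₀ = b ^ (orderOf b / r) := ⟨_, rfl⟩
  have ha₀Y : a₀ ∈ Y := ha₀ ▸ pow_mem (hY₁Y hbY₁) _
  have hcen : ∀ s ∈ T₀, s * a₀ * s⁻¹ = a₀ := by
    intro k hk
    rw [ha₀, ← conj_pow, hY₁cen k hk b hbY₁]
  have hinv : ∀ s ∈ T, s ∉ T₀ → s * a₀ * s⁻¹ = a₀⁻¹ := by
    intro k hk hk'
    rw [ha₀, ← conj_pow, hbinv k hk hk', inv_pow]
  refine ⟨T₀, a₀, r,
    { hr := hr
      hr2 := ?_
      le := hT₀T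
      idx := hidx
      ne := hne
      aL := hYL ha₀Y
      ord := by rw [ha₀]; exact orderOf_pow_orderOf_div (orderOf_pos b).ne' hrd
      cen := hcen
      inv := hinv
      comm := ?_ }⟩
  · rintro rfl
    have h3 : orderOf b ∣ Nat.card L := by
      have := orderOf_dvd_natCard (⟨b, hbL⟩ : L)
      rwa [Subgroup.orderOf_mk] at this
    have h4 : 2 ∣ Nat.gcd (Nat.card L) 2 := Nat.dvd_gcd (hrd.trans h3) dvd_rfl
    rw [h.Lodd] at h4
    omega
  · rintro w hw w' hw' ⟨k, hk, hkw, hkw'⟩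
    obtain ⟨a, ha⟩ : ∃ a, a = w * a₀ * w⁻¹ := ⟨_, rfl⟩
    obtain ⟨a', ha'⟩ : ∃ a', a' = w' * a₀ * w'⁻¹ := ⟨_, rfl⟩
    rw [← ha, ← ha']
    have haY : a ∈ Y := ha ▸ (mem_normalizer_iff.1 (hWY hw) a₀).1 ha₀Y
    have ha'Y : a' ∈ Y := ha' ▸ (mem_normalizer_iff.1 (hWY hw') a₀).1 ha₀Y
    have hkwT : w⁻¹ * k * w ∈ T := by
      have := (mem_normalizer_iff.1 (inv_mem (h.WT hw)) k).1 hk
      simpa using this
    have h1 : k * a * k⁻¹ = a⁻¹ := by
      have e : k * a * k⁻¹ = w * ((w⁻¹ * k * w) * a₀ * (w⁻¹ * k * w)⁻¹) * w⁻¹ := by rw [ha]; group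
      rw [e, hinv _ hkwT hkw, ha]; group
    have h2 : k * a' * k⁻¹ = a' := by
      have e : k * a' * k⁻¹ = w' * ((w'⁻¹ * k * w') * a₀ * (w'⁻¹ * k * w')⁻¹) * w'⁻¹ := by
        rw [ha']; group
      rw [e, hcen _ hkw', ha']
    have hcZ : ⁅a, a'⁆ ∈ ⁅Y, Y⁆ := commutator_mem_commutator haY ha'Y
    have h3 : k * ⁅a, a'⁆ * k⁻¹ = ⁅a, a'⁆ := by
      have := mem_centralizer_iff.1 (hTZ hk) _ hcZ
      rw [← this, mul_inv_cancel_right]
    have h4 : k * ⁅a, a'⁆ * k⁻¹ = ⁅a⁻¹, a'⁆ := by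
      have e : k * ⁅a, a'⁆ * k⁻¹ = ⁅k * a * k⁻¹, k * a' * k⁻¹⁆ := by
        rw [commutatorElement_def, commutatorElement_def]; group
      rw [e, h1, h2]
    have h5 : a * ⁅a, a'⁆ = ⁅a, a'⁆ * a := by
      have h6 : ⁅a, ⁅a, a'⁆⁆ ∈ ⁅Y, ⁅Y, Y⁆⁆ := commutator_mem_commutator haY hcZ
      rw [hYZ, mem_bot] at h6
      exact commutatorElement_eq_one_iff_commute.1 h6
    have h6 : ⁅a⁻¹, a'⁆ = ⁅a, a'⁆⁻¹ := by
      have e : ⁅a⁻¹, a'⁆ = a⁻¹ * ⁅a, a'⁆⁻¹ * a := by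
        rw [commutatorElement_def, commutatorElement_def]; group
      have h7 : a * ⁅a, a'⁆⁻¹ = ⁅a, a'⁆⁻¹ * a := by
        have : Commute a ⁅a, a'⁆ := h5
        exact this.inv_right
      rw [e, mul_assoc, ← h7, inv_mul_cancel_left]
    have h7 : ⁅a, a'⁆ ^ 2 = 1 := by
      rw [pow_two]
      nth_rewrite 1 [← h3]
      rw [h4, h6, inv_mul_cancel]
    have h8 := eq_one_of_sq_of_odd h.Lodd (hYL (hZlt.le hcZ)) h7
    exact commutatorElement_eq_one_iff_commute.1 h8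

end eigen

end Cfsg.Agent.Lib.Helper66
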