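import Mathlib

set_option autoImplicit false
set_option linter.style.haveILetI false
set_option linter.unusedSectionVars false

/-!
# Abelian `2`-groups whose automorphism group is transitive on involutions are homocyclic
-/

namespace Cfsg.Agent.Lib.Helper66

theorem homocyclic_of_transitive {A : Type*} [Group A] [Finite A] (hc : ∀ a b : A, a * b = b * a)
    (hA : IsPGroup 2 A)
    (htr : ∀ x y : A, x ≠ 1 → x ^ 2 = 1 → y ≠ 1 → y ^ 2 = 1 → ∃ a : MulAut A, a x = y) :
    ∃ m r : ℕ, Nonempty (A ≃* (Fin r → Multiplicative (ZMod (2 ^ m)))) := by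
  classical
  letI : CommGroup A := { ‹Group A› with mul_comm := hc }
  obtain ⟨ι, _, n, hn, ⟨e⟩⟩ := CommGroup.equiv_prod_multiplicative_zmod_of_finite A
  have hex : ∃ m : ℕ, ∀ x : A, x ^ 2 ^ m = 1 := by
    haveI : Fact (Nat.Prime 2) := ⟨Nat.prime_two⟩
    obtain ⟨c, hc'⟩ := IsPGroup.iff_card.1 hA
    exact ⟨c, fun x => by rw [← hc']; exact pow_card_eq_one'⟩
  obtain ⟨m, hm⟩ : ∃ m, m = Nat.find hex := ⟨_, rfl⟩
  have hm1 : ∀ x : A, x ^ 2 ^ m = 1 := hm ▸ Nat.find_spec hex
  have hm2 : ∀ m' < m, ∃ x : A, x ^ 2 ^ m' ≠ 1 := by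
    intro m' hm'
    have := Nat.find_min hex (hm ▸ hm')
    push Not at this
    exact this
  have hone : ∀ i, orderOf (Multiplicative.ofAdd (1 : ZMod (n i))) = n i := by
    intro i
    rw [orderOf_ofAdd_eq_addOrderOf, ZMod.addOrderOf_one]
  have hall : ∀ i, n i = 2 ^ m := by
    intro i
    obtain ⟨g, hg⟩ : ∃ g : (i : ι) → Multiplicative (ZMod (n i)),
      g = Pi.mulSingle i (Multiplicative.ofAdd (1 : ZMod (n i))) := ⟨_, rfl⟩
    have hgi : g i = Multiplicative.ofAdd (1 : ZMod (n i)) := by rw [hg, Pi.mulSingle_eq_same]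
    have hgpow : ∀ k : ℕ, g ^ k = 1 ↔ n i ∣ k := by
      intro k
      rw [← hone i, orderOf_dvd_iff_pow_eq_one, hg, ← Pi.mulSingle_pow, Pi.mulSingle_eq_one_iff]
    have h1 : n i ∣ 2 ^ m := by
      rw [← hgpow]
      have := hm1 (e.symm g)
      rw [← map_pow] at this
      exact (MulEquiv.map_eq_one_iff e.symm).1 this
    obtain ⟨k, hkm, hk⟩ := (Nat.dvd_prime_pow Nat.prime_two).1 h1
    rcases Nat.lt_or_ge k m with hlt | hge
    · exfalso
      have hk0 : k ≠ 0 := by
        rintro rfl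
        have := hn i
        rw [hk] at this
        omega
      obtain ⟨x₀, hx₀⟩ := hm2 (m - 1) (by omega)
      have hu2 : (x₀ ^ 2 ^ (m - 1)) ^ 2 = 1 := by
        rw [← pow_mul, ← pow_succ]
        have : m - 1 + 1 = m := by omega
        rw [this]; exact hm1 x₀
      have hv1 : g ^ 2 ^ (k - 1) ≠ 1 := by
        rw [Ne, hgpow, hk]
        intro hd
        have := (Nat.pow_dvd_pow_iff_le_right (by norm_num : 1 < 2)).1 hd
        omega
      have hv2 : (g ^ 2 ^ (k - 1)) ^ 2 = 1 := by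
        rw [← pow_mul, ← pow_succ, hgpow, hk]
        have : k - 1 + 1 = k := by omega
        rw [this]
      obtain ⟨a, ha⟩ := htr (x₀ ^ 2 ^ (m - 1)) (e.symm (g ^ 2 ^ (k - 1))) hx₀ hu2
        (by
          intro h
          exact hv1 ((MulEquiv.map_eq_one_iff e.symm).1 h))
        (by rw [← map_pow, hv2, map_one])
      have h2 : e (a x₀) ^ 2 ^ (m - 1) = g ^ 2 ^ (k - 1) := by
        rw [← map_pow, ← map_pow, ha, MulEquiv.apply_symm_apply]
      have h3 := congrFun h2 i
      rw [Pi.pow_apply, Pi.pow_apply, hgi] at h3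
      have h4 : (e (a x₀) i) ^ 2 ^ (m - 1) = 1 := by
        have h5 : (e (a x₀) i) ^ n i = 1 := by
          have h6 : Nat.card (Multiplicative (ZMod (n i))) = n i := by
            rw [Nat.card_congr Multiplicative.toAdd, Nat.card_zmod]
          have h8 : (e (a x₀) i) ^ Nat.card (Multiplicative (ZMod (n i))) = 1 := pow_card_eq_one'
          rwa [h6] at h8
        obtain ⟨d, hd⟩ : n i ∣ 2 ^ (m - 1) := by
          rw [hk]; exact pow_dvd_pow 2 (by omega)
        rw [hd, pow_mul, h5, one_pow]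
      rw [h4] at h3
      have h7 : n i ∣ 2 ^ (k - 1) := by
        rw [← hone i, orderOf_dvd_iff_pow_eq_one]; exact h3.symm
      rw [hk] at h7
      have := (Nat.pow_dvd_pow_iff_le_right (by norm_num : 1 < 2)).1 h7
      omega
    · rw [hk]; congr 1; omega
  obtain rfl : n = fun _ => 2 ^ m := funext hall
  exact ⟨m, Fintype.card ι, ⟨e.trans (MulEquiv.arrowCongr (Fintype.equivFin ι) (MulEquiv.refl _))⟩⟩

end Cfsg.Agent.Lib.Helper66
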