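import Mathlib
import Cfsg.Agent.Lib.Helper66.OMinE

set_option autoImplicit false
set_option linter.unusedSectionVars false
set_option linter.unusedVariables false
set_option linter.style.haveILetI false

/-!
# Coset conjugacy for `PΩ⁻`: the main theorem
-/

namespace Cfsg.Agent.Lib.Helper66.OMin

open Matrix QuadraticMap Module
open scoped MatrixGroups
open Cfsg.Agent.Lib.Helper49 (minusQF minusQF_coe GamL GamO cGam minusQF_nondegenerate ker_cGam)
open Cfsg.Agent.Lib.Helper6.OA (GO inndiagOf)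
open Cfsg.Agent.Lib.Helper66.OGrp (pow_right coset_conj orderOf_of_isConjUnder)

theorem isConjUnder_transfer {A A' : Type*} [Group A] [Group A'] (K : A ≃* A') (J : Subgroup A)
    (J' : Subgroup A') (hJ : ∀ β, β ∈ J ↔ K β ∈ J') (x δ : A)
    (h : Cfsg.IsConjUnder J' (K x) (K δ * K x)) : Cfsg.IsConjUnder J x (δ * x) := by
  obtain ⟨h', hh', e⟩ := h
  refine ⟨K.symm h', ?_, ?_⟩
  · rw [hJ, MulEquiv.apply_symm_apply]
    exact hh'
  · apply K.injective
    rw [map_mul, e, map_mul, map_mul, map_inv, MulEquiv.apply_symm_apply]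

universe u

variable {F : Type u} [Field F] [Fintype F] {m : ℕ}

theorem main_minus (hm : 3 ≤ m) (a b a' b' : F)
    (hab : ∀ z₁ z₂ : F, z₁ ^ 2 + a * z₁ * z₂ + b * z₂ ^ 2 = 0 → z₁ = 0 ∧ z₂ = 0)
    (hab' : ∀ z₁ z₂ : F, z₁ ^ 2 + a' * z₁ * z₂ + b' * z₂ ^ 2 = 0 → z₁ = 0 ∧ z₂ = 0)
    (x δ : MulAut (Cfsg.POmega F ⇑(minusQF m F a b)))
    (ψ : Cfsg.POmega F ⇑(minusQF m F a b) ≃* Cfsg.POmega F ⇑(minusQF m F a' b'))
    (σ : F ≃+* F) (hσ : σ ≠ RingEquiv.refl F) (ha' : σ a' = a') (hb' : σ b' = b')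
    (hψ : Cfsg.IsFieldAutPOmegaOf ⇑(minusQF m F a' b') σ ((ψ.symm.trans x).trans ψ))
    {r : ℕ} (hr : r.Prime) (hxr : orderOf x = r)
    (hδ : δ ∈ inndiagOf ⇑(minusQF m F a b) (Cfsg.PreservesSingularClassesMinus m a b)) :
    orderOf (δ * x) = r ↔ Cfsg.IsConjUnder
      (inndiagOf ⇑(minusQF m F a b) (Cfsg.PreservesSingularClassesMinus m a b)) x (δ * x) := by
  constructor
  swap
  · intro h
    rw [orderOf_of_isConjUnder _ _ _ h, hxr]
  intro ho
  have hQ' : (polarBilin (minusQF m F a' b')).Nondegenerate :=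
    minusQF_nondegenerate m F a' b' (Cfsg.Agent.Lib.Helper49.minus_disc_ne_zero a' b' hab')
  have hcard : 7 ≤ Fintype.card ((Fin m ⊕ Fin m) ⊕ Fin 2) := by
    simp only [Fintype.card_sum, Fintype.card_fin]; omega
  obtain ⟨K, hK⟩ : ∃ K : MulAut (Cfsg.POmega F ⇑(minusQF m F a b)) ≃*
      MulAut (Cfsg.POmega F ⇑(minusQF m F a' b')), ∀ β, K β = (ψ.symm.trans β).trans ψ :=
    ⟨MulAut.congr ψ, fun β => rfl⟩
  obtain ⟨Φ, hΦ⟩ : ∃ Φ, Φ = gS1 _ σ (hσQ_minus (m := m) a' b' σ ha' hb') := ⟨_, rfl⟩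
  have hx' : K x = cGam ⇑(minusQF m F a' b') Φ := by
    rw [hK, hΦ]
    exact field_eq1 _ σ _ _ hψ
  have hδ' : K δ ∈ (DM a' b' hab').map (cGam ⇑(minusQF m F a' b')) := by
    rw [← inndiag_eq_minus a' b' hab', hK]
    exact (transport hm a b a' b' hab hab' ψ δ).1 hδ
  have ho' : orderOf (K δ * K x) = r := by
    rw [← map_mul, MulEquiv.orderOf_eq, ho]
  have hΦr : (cGam ⇑(minusQF m F a' b') Φ) ^ r = 1 := by
    rw [← hx', ← map_pow, ← hxr, pow_orderOf_eq_one, map_one]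
  have hσr : σ ^ r = 1 := by
    have h1 : cGam ⇑(minusQF m F a' b') (Φ ^ r) = 1 := by rw [map_pow]; exact hΦr
    have h2 := (ker_cGam _ hQ' hcard (Φ ^ r) h1).1
    have h3 : (Φ.1 ^ r).right = 1 := h2
    rw [pow_right] at h3
    rw [hΦ] at h3
    exact h3
  have hord : orderOf σ = r := by
    have := Fact.mk hr
    exact orderOf_eq_prime hσr hσ
  have hcore : ∀ d ∈ DM a' b' hab', (cGam ⇑(minusQF m F a' b') (d * Φ)) ^ r = 1 →
      ∃ h ∈ DM a' b' hab', cGam ⇑(minusQF m F a' b') (d * Φ) =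
        cGam ⇑(minusQF m F a' b') (h * Φ * h⁻¹) := by
    subst hΦ
    exact fun d hd h => core_minus hm a' b' hab' σ ha' hb' r hr.pos hord d hd h
  have hfin := coset_conj _ (cGam_surjective hm a' b' hab') _ (DM_normal a' b' hab') Φ r
    hcore (K x) (K δ) 1 (by rw [hx']; group) hδ' ho'
  refine isConjUnder_transfer K _ _ (fun β => ?_) x δ hfin
  rw [transport hm a b a' b' hab hab' ψ, ← hK, inndiag_eq_minus a' b' hab']

end Cfsg.Agent.Lib.Helper66.OMin
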