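import Mathlib
import Cfsg.Agent.Lib.Helper66.Eigen
import Cfsg.Agent.Lib.Helper66.PComplement
import Cfsg.Agent.Lib.Helper90.SmallExp
import Cfsg.Agent.Lib.Helper14.PSeries

set_option autoImplicit false
set_option linter.style.haveILetI false
set_option linter.unusedSectionVars false

/-!
# Solvable groups with one class of involutions: auxiliary lemmas
-/

namespace Cfsg.Agent.Lib.Helper66

open Subgroup
open scoped commutatorElement

variable {X : Type*} [Group X] [Finite X]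

/-- orbit-stabiliser for the conjugation action of a subgroup -/
theorem relIndex_centralizer_singleton (N : Subgroup X) (e : X) :
    (centralizer {e}).relIndex N = ({y : X | ∃ n ∈ N, n * e * n⁻¹ = y} : Set X).ncard := by
  letI : MulAction N X := MulAction.compHom X ((MulAut.conj).comp N.subtype)
  have h := MulAction.index_stabilizer N e
  have h1 : MulAction.stabilizer N e = (centralizer {e}).subgroupOf N := by
    ext n
    rw [MulAction.mem_stabilizer_iff, mem_subgroupOf, mem_centralizer_singleton_iff]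
    change (n : X) * e * (n : X)⁻¹ = e ↔ _
    rw [mul_inv_eq_iff_eq_mul]
  have h2 : MulAction.orbit N e = {y : X | ∃ n ∈ N, n * e * n⁻¹ = y} := by
    ext y
    constructor
    · rintro ⟨n, rfl⟩
      exact ⟨n, n.2, rfl⟩
    · rintro ⟨n, hn, rfl⟩
      exact ⟨⟨n, hn⟩, rfl⟩
  rw [h1, h2] at h
  exact h

/-- a `2`-complement of a group transitive on `E ∖ 1` has orbits of length divisible by `|E| - 1` -/
theorem card_sub_one_dvd {E N W : Subgroup X} (hEeven : Even (Nat.card E))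
    (hN : ∀ n ∈ N, ∀ e ∈ E, n * e * n⁻¹ ∈ E)
    (htr : ∀ e ∈ E, e ≠ 1 → ∀ e' ∈ E, e' ≠ 1 → ∃ n ∈ N, n * e * n⁻¹ = e')
    (hWN : W ≤ N) (hW : ∃ a : ℕ, W.relIndex N = 2 ^ a) {e : X} (he : e ∈ E) (he1 : e ≠ 1) :
    (Nat.card E - 1) ∣ (centralizer {e}).relIndex W := by
  have h1 : (centralizer {e}).relIndex N = Nat.card E - 1 := by
    rw [relIndex_centralizer_singleton]
    have : ({y : X | ∃ n ∈ N, n * e * n⁻¹ = y} : Set X) = (E : Set X) \ {1} := by
      ext y
      constructor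
      · rintro ⟨n, hn, rfl⟩
        refine ⟨hN n hn e he, ?_⟩
        intro h
        apply he1
        have h' : n * e * n⁻¹ = 1 := h
        rw [mul_inv_eq_one] at h'
        exact mul_eq_left.1 h'
      · rintro ⟨hy, hy1⟩
        exact htr e he he1 y hy hy1
    rw [this, Set.ncard_sdiff_singleton_of_mem (one_mem E)]
    rfl
  obtain ⟨a, ha⟩ := hW
  have h2 := relIndex_inf_mul_relIndex (centralizer {e}) W N
  have h3 := relIndex_inf_mul_relIndex W (centralizer {e}) N
  rw [inf_eq_left.2 hWN, ha] at h2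
  rw [h1, inf_comm W, ← h2] at h3
  have h4 : (Nat.card E - 1) ∣ (centralizer {e}).relIndex W * 2 ^ a := ⟨_, by rw [← h3, mul_comm]⟩
  have hodd : Nat.Coprime (Nat.card E - 1) (2 ^ a) := by
    apply Nat.Coprime.pow_right
    rw [Nat.coprime_two_right]
    obtain ⟨c, hc⟩ := hEeven
    have : 0 < Nat.card E := Nat.card_pos
    exact ⟨c - 1, by omega⟩
  exact hodd.dvd_of_dvd_mul_right h4

/-- a nontrivial element of `2`-power order has a power which is an involution -/
theorem exists_pow_involution {S : Subgroup X} (hS : IsPGroup 2 S) {t : X} (ht : t ∈ S) (ht1 : t ≠ 1) :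
    ∃ k : ℕ, t ^ k ≠ 1 ∧ (t ^ k) ^ 2 = 1 := by
  obtain ⟨j, hj⟩ := hS ⟨t, ht⟩
  have hj' : t ^ 2 ^ j = 1 := by simpa using congrArg Subtype.val hj
  obtain ⟨i, -, hi⟩ := (Nat.dvd_prime_pow Nat.prime_two).1 (orderOf_dvd_of_pow_eq_one hj')
  have hi0 : i ≠ 0 := by
    rintro rfl
    rw [pow_zero, orderOf_eq_one_iff] at hi
    exact ht1 hi
  have h2 : 2 ∣ orderOf t := by rw [hi]; exact dvd_pow_self 2 hi0
  have h3 := orderOf_pow_orderOf_div (x := t) (n := 2) (by rw [hi]; positivity) h2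
  refine ⟨orderOf t / 2, ?_, ?_⟩
  · intro h
    rw [h, orderOf_one] at h3
    omega
  · have := pow_orderOf_eq_one (t ^ (orderOf t / 2))
    rwa [h3] at this

/-- a group of odd order normalising `S₀ < S₁` of index `2` centralises an involution -/
theorem exists_fixed_involution {S₀ S₁ W₀ : Subgroup X} (hS₁ : IsPGroup 2 S₁) (hle : S₀ ≤ S₁)
    (hidx : ∀ s ∈ S₁, s ∉ S₀ → ∀ s' ∈ S₁, s' ∉ S₀ → s * s' ∈ S₀) (hne : ∃ s ∈ S₁, s ∉ S₀)
    (hW : (Nat.card W₀).Coprime 2) (hW₁ : W₀ ≤ normalizer (S₁ : Set X))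
    (hW₀ : W₀ ≤ normalizer (S₀ : Set X)) :
    ∃ e : X, e ≠ 1 ∧ e ^ 2 = 1 ∧ W₀ ≤ centralizer {e} := by
  obtain ⟨k, hk, hk0⟩ := hne
  obtain ⟨j, hj⟩ := IsPGroup.iff_card.1 hS₁
  have hsol : Group.IsSolvable S₁ := by
    haveI := hS₁.isNilpotent
    infer_instance
  obtain ⟨n, hn, hc⟩ := Helper30.exists_mem_centralizer_of_coset (A := W₀) (K := S₁) (N := S₀) hW₁
    (by rw [hj]; exact Nat.Coprime.pow_right j hW) (Or.inr hsol) hle hW₀ hk (by
      intro a ha
      have h1 : a * k * a⁻¹ ∈ S₁ := (mem_normalizer_iff.1 (hW₁ ha) k).1 hk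
      have h2 : a * k * a⁻¹ ∉ S₀ := fun h => hk0 ((mem_normalizer_iff.1 (hW₀ ha) k).2 h)
      have h3 : k⁻¹ ∉ S₀ := fun h => hk0 (by simpa using inv_mem h)
      have := hidx _ (inv_mem hk) h3 _ h1 h2
      simpa [mul_assoc] using this)
  have ht : k * n ∈ S₁ := mul_mem hk (hle hn)
  have ht1 : k * n ≠ 1 := by
    intro h
    apply hk0
    have : k = n⁻¹ := eq_inv_of_mul_eq_one_left h
    rw [this]; exact inv_mem hn
  obtain ⟨i, hi1, hi2⟩ := exists_pow_involution hS₁ ht ht1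
  refine ⟨_, hi1, hi2, ?_⟩
  intro w hw
  rw [mem_centralizer_singleton_iff]
  have h1 : w * (k * n) = (k * n) * w := (mem_centralizer_iff.1 hc w hw)
  have h2 : Commute w (k * n) := h1
  exact (h2.pow_right i)

/-- lifting a subgroup of odd order through a normal `2`-subgroup -/
theorem exists_lift_odd (P : Subgroup X) [hPn : P.Normal] (hP : IsPGroup 2 P) (Ab : Subgroup (X ⧸ P))
    (hodd : (Nat.card Ab).Coprime 2) :
    ∃ A : Subgroup X, A.map (QuotientGroup.mk' P) = Ab ∧ A ⊓ P = ⊥ ∧ Nat.card A = Nat.card Ab := by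
  obtain ⟨K, hK⟩ : ∃ K, K = Ab.comap (QuotientGroup.mk' P) := ⟨_, rfl⟩
  have hPK : P ≤ K := hK ▸ Helper14.le_comap_mk' P Ab
  have hKrel : P.relIndex K = Nat.card Ab := hK ▸ Helper14.relIndex_comap_mk' P Ab
  haveI : (P.subgroupOf K).Normal := inferInstance
  have hcop : Nat.Coprime (Nat.card (P.subgroupOf K)) (P.subgroupOf K).index := by
    obtain ⟨n, hn⟩ := IsPGroup.iff_card.1 hP
    rw [Helper30.card_subgroupOf hPK, hn]
    change Nat.Coprime _ (P.relIndex K)
    rw [hKrel]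
    exact (Nat.Coprime.pow_right n hodd).symm
  obtain ⟨B', hB'⟩ := Subgroup.exists_right_complement'_of_coprime hcop
  have hcard : Nat.card (B'.map K.subtype) = Nat.card Ab := by
    rw [Subgroup.card_map_of_injective K.subtype_injective, ← hB'.symm.index_eq_card]
    exact hKrel
  have hsup : K = B'.map K.subtype ⊔ P := by
    have h1 := hB'.sup_eq_top
    have h2 := congrArg (Subgroup.map K.subtype) h1
    rw [Subgroup.map_sup, Subgroup.subgroupOf_map_subtype, inf_eq_left.2 hPK,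
      ← MonoidHom.range_eq_map, Subgroup.range_subtype] at h2
    rw [sup_comm]; exact h2.symm
  refine ⟨B'.map K.subtype, ?_, ?_, hcard⟩
  · have h1 : K.map (QuotientGroup.mk' P) = Ab := by
      rw [hK, Subgroup.map_comap_eq_self_of_surjective (QuotientGroup.mk'_surjective P)]
    have h2 : P.map (QuotientGroup.mk' P) = ⊥ := by
      rw [Subgroup.map_eq_bot_iff, QuotientGroup.ker_mk']
    rw [hsup, Subgroup.map_sup, h2, sup_bot_eq] at h1
    exact h1
  · rw [inf_comm]
    exact inf_eq_bot_of_pgroup_coprime hP (by rw [hcard]; exact hodd)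

/-- the rank bound, applied to a group all of whose involutions lie in `Ω₁(Z(O₂))` -/
theorem rank_apply (P E A : Subgroup X) [hPn : P.Normal] (hP : IsPGroup 2 P)
    (hCP : centralizer (P : Set X) ≤ P) (hE : ∀ x : X, x ^ 2 = 1 ↔ x ∈ E)
    (hEP : E ≤ centralizer (P : Set X)) (r : ℕ) [hr : Fact r.Prime] (hr2 : r ≠ 2)
    (hAE : ∀ a ∈ A, ∀ e ∈ E, a * e = e * a) (hAc : ∀ a ∈ A, ∀ b ∈ A, a * b = b * a)
    (hAr : ∀ a ∈ A, a ^ r = 1) (k : ℕ) (hk : Nat.card A = r ^ k) : 2 ^ k ≤ Nat.card E := by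
  obtain ⟨D, hDP, hDs, hDi, hDf⟩ := Helper90.exists_small_sub (p := 2) P hP
  have hDn : D.Normal := by
    constructor
    intro x hx g
    exact hDi (MulAut.conjNormal g) ⟨x, hDP hx⟩ hx
  have hsq : SqData E D := by
    refine ⟨fun e he => (hE e).2 he, ?_, ?_⟩
    · intro e he x hx
      exact (mem_centralizer_iff.1 (hEP he) x (hDP hx)).symm
    · intro x hx
      rw [← hE, ← pow_mul]
      rcases hDs x hx with h | ⟨-, h⟩
      · rw [pow_mul, h, one_pow]
      · exact h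
  have hcop : Nat.Coprime r 2 := (Nat.coprime_primes hr.out Nat.prime_two).2 hr2
  apply rank_bound hsq r hr2 (by rw [normalizer_eq_top]; exact le_top) hAE hAc hAr
    (fun x _ hx2 => (hE x).1 hx2) ?_ k hk
  intro a ha hfix
  have h1 : (MulAut.conjNormal a : MulAut P) = 1 := by
    apply hDf
    · have h2 : orderOf (MulAut.conjNormal a : MulAut P) ∣ r := by
        apply orderOf_dvd_of_pow_eq_one
        rw [← map_pow, hAr a ha, map_one]
      exact Nat.Coprime.coprime_dvd_left h2 hcop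
    · intro x hx
      apply Subtype.ext
      rw [MulAut.conjNormal_apply, hfix x hx, mul_inv_cancel_right]
  have h2 : a ∈ P := by
    apply hCP
    rw [mem_centralizer_iff]
    intro x hx
    have h3 := congrArg (fun f : MulAut P => ((f ⟨x, hx⟩ : P) : X)) h1
    simp only [MulAut.conjNormal_apply, MulAut.one_apply] at h3
    rw [mul_inv_eq_iff_eq_mul] at h3
    exact h3.symm
  obtain ⟨j, hj⟩ := hP ⟨a, h2⟩
  have hj' : a ^ 2 ^ j = 1 := by simpa using congrArg Subtype.val hj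
  have h4 : orderOf a ∣ Nat.gcd r (2 ^ j) :=
    Nat.dvd_gcd (orderOf_dvd_of_pow_eq_one (hAr a ha)) (orderOf_dvd_of_pow_eq_one hj')
  rw [Nat.Coprime.pow_right j hcop] at h4
  exact orderOf_eq_one_iff.1 (Nat.dvd_one.1 h4)

/-- the family of conjugates of an eigen-element generates a large elementary abelian group -/
theorem eigen_family {Q : Type*} [Group Q] [Finite Q] {L T Wb T₀ : Subgroup Q} {a₀ : Q} {r : ℕ}
    (hWL : Wb ≤ normalizer (L : Set Q)) (hWT : Wb ≤ normalizer (T : Set Q))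
    (h : EigenOut L T Wb T₀ a₀ r) {ι : Type*} [Fintype ι] (w : ι → Q) (hw : ∀ i, w i ∈ Wb)
    (hsep : ∀ i j, i ≠ j → ∃ s ∈ T, (w j)⁻¹ * s * w j ∈ T₀ ∧ (w i)⁻¹ * s * w i ∉ T₀) :
    ∃ A : Subgroup Q, A ≤ L ∧ (∀ a ∈ A, ∀ b ∈ A, a * b = b * a) ∧ (∀ a ∈ A, a ^ r = 1) ∧
      r ^ Fintype.card ι ≤ Nat.card A := by
  classical
  obtain ⟨a, ha⟩ : ∃ a : ι → Q, a = fun i => w i * a₀ * (w i)⁻¹ := ⟨_, rfl⟩
  have hcomm : ∀ i j, a i * a j = a j * a i := by
    intro i j
    by_cases hij : i = j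
    · rw [hij]
    · obtain ⟨s, hs, h1, h2⟩ := hsep i j hij
      rw [ha]
      exact h.comm (w i) (hw i) (w j) (hw j) ⟨s, hs, h2, h1⟩
  have hord : ∀ i, orderOf (a i) = r := by
    intro i
    rw [ha, ← h.ord]
    exact (MulAut.conj (w i)).orderOf_eq a₀
  have hmem : ∀ i, ∀ s ∈ T, (w i)⁻¹ * s * w i ∈ T := by
    intro i s hs
    have := (mem_normalizer_iff.1 (inv_mem (hWT (hw i))) s).1 hs
    simpa using this
  have hodd : Odd r := h.hr.odd_of_ne_two h.hr2
  have key := eigen_indep a (fun i s => (w i)⁻¹ * s * w i ∈ T₀) T r hodd hcomm hord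
    (by
      intro i s hs hχ
      have := h.cen _ hχ
      rw [ha]
      calc s * (w i * a₀ * (w i)⁻¹) * s⁻¹
          = w i * (((w i)⁻¹ * s * w i) * a₀ * ((w i)⁻¹ * s * w i)⁻¹) * (w i)⁻¹ := by group
        _ = _ := by rw [this])
    (by
      intro i s hs hχ
      have := h.inv _ (hmem i s hs) hχ
      rw [ha]
      calc s * (w i * a₀ * (w i)⁻¹) * s⁻¹
          = w i * (((w i)⁻¹ * s * w i) * a₀ * ((w i)⁻¹ * s * w i)⁻¹) * (w i)⁻¹ := by group
        _ = w i * a₀⁻¹ * (w i)⁻¹ := by rw [this]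
        _ = _ := by group)
    hsep (Fintype.card ι) Finset.univ rfl
  have hSc : ∀ x ∈ a '' ((Finset.univ : Finset ι) : Set ι), ∀ y ∈ a '' ((Finset.univ : Finset ι) : Set ι),
      x * y = y * x := by
    rintro _ ⟨i, _, rfl⟩ _ ⟨j, _, rfl⟩
    exact hcomm i j
  refine ⟨closure (a '' ((Finset.univ : Finset ι) : Set ι)), ?_, closure_commute hSc, ?_, key⟩
  · rw [closure_le]
    rintro _ ⟨i, _, rfl⟩
    rw [ha]
    exact (mem_normalizer_iff.1 (hWL (hw i)) a₀).1 h.aL
  · apply closure_pow_eq_one hSc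
    rintro _ ⟨i, _, rfl⟩
    rw [← hord i]; exact pow_orderOf_eq_one _

end Cfsg.Agent.Lib.Helper66
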