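import Mathlib
import Cfsg.Agent.Lib.Helper66.OneClassA
import Cfsg.Agent.Lib.Helper31.CNSolv
import Cfsg.Agent.Lib.Helper31.PSolv
import Cfsg.Agent.Lib.Helper12.MinNormal
import Cfsg.Agent.Lib.Helper80.PSolv
import Cfsg.Agent.Lib.Helper1.Cores

set_option autoImplicit false
set_option linter.style.haveILetI false
set_option linter.unusedSectionVars false

/-!
# Solvable groups with one class of involutions: the structure of `X / O₂(X)`
-/

namespace Cfsg.Agent.Lib.Helper66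

open Subgroup
open scoped commutatorElement

/-- In a solvable group `Q` with `O₂(Q) = 1` and `O(Q) ≠ Q` there is an elementary abelian `2`-subgroup
`T` acting nontrivially on `O(Q)` with `Q = N(T) O(Q)`. -/
theorem exists_elem_two {Q : Type*} [Group Q] [Finite Q] (hQ : Group.IsSolvable Q)
    (h2 : Cfsg.pCore 2 Q = ⊥) (hLtop : Cfsg.pPrimeCore 2 Q ≠ ⊤) :
    ∃ T : Subgroup Q, (∀ s ∈ T, s * s = 1) ∧ (∀ s ∈ T, ∀ s' ∈ T, s * s' = s' * s) ∧
      normalizer (T : Set Q) ⊔ Cfsg.pPrimeCore 2 Q = ⊤ ∧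
      ¬ T ≤ centralizer (Cfsg.pPrimeCore 2 Q : Set Q) := by
  haveI : Fact (Nat.Prime 2) := ⟨Nat.prime_two⟩
  obtain ⟨L, hL⟩ : ∃ L, L = Cfsg.pPrimeCore 2 Q := ⟨_, rfl⟩
  rw [← hL] at hLtop ⊢
  haveI hLn : L.Normal := hL ▸ Helper1.pPrimeCore_normal 2 Q
  have hLodd : (Nat.card L).Coprime 2 := hL ▸ Helper1.pPrimeCore_coprime 2 Q
  have hCL : centralizer (L : Set Q) ≤ L := by
    have h1 : Cfsg.fittingSubgroup Q ≤ L :=
      hL ▸ Helper1.le_pPrimeCore (Helper1.fitting_normal Q)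
        (Helper31.fitting_card_coprime Nat.prime_two h2)
    calc centralizer (L : Set Q) ≤ centralizer (Cfsg.fittingSubgroup Q : Set Q) :=
          centralizer_le h1
      _ ≤ Cfsg.fittingSubgroup Q := Cfsg.Agent.S0044.result
      _ ≤ L := h1
  haveI : Nontrivial (Q ⧸ L) := by
    rw [QuotientGroup.nontrivial_iff]
    exact hLtop
  have hcore : Cfsg.pPrimeCore 2 (Q ⧸ L) = ⊥ := by
    subst hL
    exact Helper80.pPrimeCore_quotient_eq_bot
  haveI : Group.IsSolvable (Q ⧸ L) :=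
    Group.isSolvable_of_surjective (QuotientGroup.mk'_surjective L)
  obtain ⟨V, hV⟩ := Helper12.exists_minNormal (G := Q ⧸ L)
  obtain ⟨p, hp, hVp, hVc⟩ := hV.exists_prime
  obtain ⟨hVn, hVne, -⟩ := hV
  have hVpg : IsPGroup p V := by
    intro x
    exact ⟨1, by rw [pow_one]; exact Subtype.ext (by simpa using hVp x x.2)⟩
  have hp2 : p = 2 := by
    by_contra hne
    apply hVne
    rw [eq_bot_iff, ← hcore]
    apply Helper1.le_pPrimeCore hVn
    haveI := Fact.mk hp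
    obtain ⟨n, hn⟩ := IsPGroup.iff_card.1 hVpg
    rw [hn]
    exact Nat.Coprime.pow_left n ((Nat.coprime_primes hp Nat.prime_two).2 hne)
  subst hp2
  obtain ⟨M, hM⟩ : ∃ M, M = V.comap (QuotientGroup.mk' L) := ⟨_, rfl⟩
  haveI hMn : M.Normal := hM ▸ hVn.comap _
  have hLM : L ≤ M := hM ▸ Helper14.le_comap_mk' L V
  have hrel : L.relIndex M = Nat.card V := hM ▸ Helper14.relIndex_comap_mk' L V
  obtain ⟨v, hv⟩ := IsPGroup.iff_card.1 hVpg
  obtain ⟨T'⟩ : Nonempty (Sylow 2 M) := inferInstance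
  obtain ⟨T, hT⟩ : ∃ T, T = (T' : Subgroup M).map M.subtype := ⟨_, rfl⟩
  have hfrat : normalizer (T : Set Q) ⊔ M = ⊤ := hT ▸ Sylow.normalizer_sup_eq_top T'
  have hTM : T ≤ M := hT ▸ map_subtype_le _
  have hTp : IsPGroup 2 T := hT ▸ T'.2.map _
  have hTL : T ⊓ L = ⊥ := inf_eq_bot_of_pgroup_coprime hTp hLodd
  have hTidx : ¬ 2 ∣ T.relIndex M := by
    have h1 : T.relIndex M = (T' : Subgroup M).index := by
      rw [hT, relIndex, subgroupOf, comap_map_eq_self_of_injective M.subtype_injective]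
    rw [h1]
    exact T'.not_dvd_index
  have hMLT : M ≤ L ⊔ T := by
    rw [← relIndex_eq_one]
    have h1 : (L ⊔ T).relIndex M ∣ 2 ^ v := by
      rw [← hv, ← hrel]; exact relIndex_dvd_of_le_left M le_sup_left
    have h2 : (L ⊔ T).relIndex M ∣ T.relIndex M := relIndex_dvd_of_le_left M le_sup_right
    obtain ⟨j, _, hj⟩ := (Nat.dvd_prime_pow Nat.prime_two).1 h1
    by_contra hne1
    have hj0 : j ≠ 0 := by
      rintro rfl
      exact hne1 (by rw [hj, pow_zero])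
    exact hTidx (((dvd_pow_self 2 hj0).trans (hj ▸ dvd_rfl)).trans h2)
  have hmemV : ∀ s ∈ T, QuotientGroup.mk' L s ∈ V := by
    intro s hs
    have := hTM hs
    rw [hM] at this
    exact this
  have hkill : ∀ x ∈ T, QuotientGroup.mk' L x = 1 → x = 1 := by
    intro x hx h1
    have h3 : x ∈ T ⊓ L := ⟨hx, (QuotientGroup.eq_one_iff x).1 h1⟩
    rwa [hTL, mem_bot] at h3
  refine ⟨T, ?_, ?_, ?_, ?_⟩
  · intro s hs
    apply hkill _ (mul_mem hs hs)
    rw [map_mul, ← pow_two]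
    exact hVp _ (hmemV s hs)
  · intro s hs s' hs'
    have h1 : s * s' * (s' * s)⁻¹ = 1 := by
      apply hkill _ (mul_mem (mul_mem hs hs') (inv_mem (mul_mem hs' hs)))
      have h3 := congrArg Subtype.val (hVc.is_comm.comm (⟨_, hmemV s hs⟩ : V) ⟨_, hmemV s' hs'⟩)
      have h4 : QuotientGroup.mk' L s * QuotientGroup.mk' L s' =
          QuotientGroup.mk' L s' * QuotientGroup.mk' L s := h3
      rw [map_mul, map_inv, map_mul, map_mul, h4, mul_inv_cancel]
    exact mul_inv_eq_one.1 h1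
  · rw [eq_top_iff, ← hfrat]
    apply sup_le le_sup_left
    exact hMLT.trans (sup_le le_sup_right (le_normalizer.trans le_sup_left))
  · intro hcen
    have h1 : T = ⊥ := by
      rw [eq_bot_iff, ← hTL]
      exact le_inf le_rfl (hcen.trans hCL)
    apply hVne
    have h3 : M ≤ L := by
      rw [h1, sup_bot_eq] at hMLT
      exact hMLT
    have h4 := Subgroup.map_mono (f := QuotientGroup.mk' L) h3
    rw [hM, Subgroup.map_comap_eq_self_of_surjective (QuotientGroup.mk'_surjective L)] at h4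
    have h5 : L.map (QuotientGroup.mk' L) = ⊥ := by
      rw [Subgroup.map_eq_bot_iff, QuotientGroup.ker_mk']
    rw [h5] at h4
    exact le_bot_iff.1 h4

theorem mem_normalizer_of_conj_mem {X : Type*} [Group X] [Finite X] {H : Subgroup X} {g : X}
    (h : ∀ x ∈ H, g * x * g⁻¹ ∈ H) : g ∈ normalizer (H : Set X) := by
  apply Helper30.mem_normalizer_of_cj_eq
  apply Subgroup.eq_of_le_of_card_ge
  · rintro _ ⟨x, hx, rfl⟩
    exact h x hx
  · rw [Helper30.card_cj]

/-- The main counting argument. -/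
theorem one_class_main {X : Type*} [Group X] [Finite X] (hX : Group.IsSolvable X)
    (P E : Subgroup X) [hPn : P.Normal] (hP : IsPGroup 2 P) (hCP : centralizer (P : Set X) ≤ P)
    (hE : ∀ x : X, x ^ 2 = 1 ↔ x ∈ E) (hEP : E ≤ centralizer (P : Set X))
    (hconj : ∀ e ∈ E, e ≠ 1 → ∀ e' ∈ E, e' ≠ 1 → ∃ g : X, g * e * g⁻¹ = e')
    (L T : Subgroup (X ⧸ P)) [hLn : L.Normal] (hLodd : (Nat.card L).Coprime 2)
    (hKE : ∀ k : X, QuotientGroup.mk' P k ∈ L → ∀ e ∈ E, k * e = e * k)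
    (hT2 : ∀ s ∈ T, s * s = 1) (hTc : ∀ s ∈ T, ∀ s' ∈ T, s * s' = s' * s)
    (hfrat : normalizer (T : Set (X ⧸ P)) ⊔ L = ⊤) (hnc : ¬ T ≤ centralizer (L : Set (X ⧸ P)))
    (hEne : E ≠ ⊥) : Nat.card E ≤ 2 := by
  haveI : Fact (Nat.Prime 2) := ⟨Nat.prime_two⟩
  obtain ⟨π, hπ⟩ : ∃ π, π = QuotientGroup.mk' P := ⟨_, rfl⟩
  rw [← hπ] at hKE
  have hπs : Function.Surjective π := hπ ▸ QuotientGroup.mk'_surjective P
  have hker : ∀ x, π x = 1 ↔ x ∈ P := by
    intro x
    rw [hπ]; exact QuotientGroup.eq_one_iff x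
  have hEp : IsPGroup 2 E := by
    intro x
    exact ⟨1, by rw [pow_one]; exact Subtype.ext (by simpa using (hE x).2 x.2)⟩
  have hEeven : Even (Nat.card E) := by
    obtain ⟨n, hn⟩ := IsPGroup.iff_card.1 hEp
    rw [hn]
    rcases Nat.eq_zero_or_pos n with h0 | h0
    · exfalso
      rw [h0, pow_zero] at hn
      exact hEne (Subgroup.card_eq_one.1 hn)
    · exact (Nat.even_pow.2 ⟨even_two, h0.ne'⟩)
  have hEn : ∀ g : X, ∀ e ∈ E, g * e * g⁻¹ ∈ E := by
    intro g e he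
    rw [← hE, conj_pow, (hE e).2 he]; group
  have hTp : IsPGroup 2 T := by
    intro s
    refine ⟨1, ?_⟩
    apply Subtype.ext
    have := hT2 s s.2
    simpa [pow_two] using this
  obtain ⟨S₁, hS₁⟩ : ∃ S₁, S₁ = T.comap π := ⟨_, rfl⟩
  have hS₁p : IsPGroup 2 S₁ := by
    rw [hS₁]
    apply IsPGroup.comap_of_ker_isPGroup hTp
    rw [hπ, QuotientGroup.ker_mk']; exact hP
  obtain ⟨Nt, hNt⟩ : ∃ Nt, Nt = (normalizer (T : Set (X ⧸ P))).comap π := ⟨_, rfl⟩
  have hNS₁ : Nt ≤ normalizer (S₁ : Set X) := by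
    rw [hNt, hS₁]; exact le_normalizer_comap π
  have htr : ∀ e ∈ E, e ≠ 1 → ∀ e' ∈ E, e' ≠ 1 → ∃ n ∈ Nt, n * e * n⁻¹ = e' := by
    intro e he he1 e' he' he1'
    obtain ⟨g, rfl⟩ := hconj e he he1 e' he' he1'
    have h1 : π g ∈ L ⊔ normalizer (T : Set (X ⧸ P)) := by
      rw [sup_comm, hfrat]; exact mem_top _
    obtain ⟨l, hl, n, hn, hg⟩ := Helper30.mem_sup_normal_left.1 h1
    obtain ⟨n', rfl⟩ := hπs n
    refine ⟨n', by rw [hNt]; exact hn, ?_⟩
    have h2 : π (n'⁻¹ * g) ∈ L := by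
      rw [map_mul, hg, map_inv]
      have := hLn.conj_mem l hl (π n')⁻¹
      simpa [mul_assoc] using this
    have h3 := hKE _ h2 e he
    calc n' * e * n'⁻¹ = n' * (e * (n'⁻¹ * g)) * g⁻¹ := by group
      _ = n' * ((n'⁻¹ * g) * e) * g⁻¹ := by rw [h3]
      _ = g * e * g⁻¹ := by group
  -- the 2-complement
  haveI : Group.IsSolvable Nt := inferInstance
  obtain ⟨W', hW'odd, a, hW'idx⟩ := exists_isPC (Helper31.isPSolvable_of_isSolvable 2 Nt)
  obtain ⟨W, hW⟩ : ∃ W, W = W'.map Nt.subtype := ⟨_, rfl⟩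
  have hWN : W ≤ Nt := hW ▸ map_subtype_le _
  have hWodd : (Nat.card W).Coprime 2 := by
    rw [hW, Subgroup.card_map_of_injective Nt.subtype_injective]; exact hW'odd
  have hWrel : W.relIndex Nt = 2 ^ a := by
    rw [hW, relIndex, subgroupOf, comap_map_eq_self_of_injective Nt.subtype_injective]
    exact hW'idx
  haveI : Group.IsSolvable (X ⧸ P) := Group.isSolvable_of_surjective (QuotientGroup.mk'_surjective P)
  have hWT : W.map π ≤ normalizer (T : Set (X ⧸ P)) := by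
    rw [map_le_iff_le_comap, ← hNt]; exact hWN
  have hWL : W.map π ≤ normalizer (L : Set (X ⧸ P)) := by
    rw [normalizer_eq_top]; exact le_top
  have hED : EigenData L T (W.map π) :=
    ⟨by rw [normalizer_eq_top]; exact le_top, hWL, inferInstance, hLodd, hT2, hTc, hWT, hnc⟩
  obtain ⟨T₀, a₀, r, hout⟩ := exists_eigen hED
  obtain ⟨S₀, hS₀⟩ : ∃ S₀, S₀ = T₀.comap π := ⟨_, rfl⟩
  have hS₀₁ : S₀ ≤ S₁ := by rw [hS₀, hS₁]; exact comap_mono hout.le
  obtain ⟨e₀, he1, he2, hW₀e⟩ := exists_fixed_involution (S₀ := S₀) (S₁ := S₁)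
    (W₀ := W ⊓ normalizer (S₀ : Set X)) hS₁p hS₀₁
    (by
      intro s hs hs0 s' hs' hs0'
      rw [hS₁] at hs hs'
      rw [hS₀] at hs0 hs0' ⊢
      rw [mem_comap, map_mul]
      exact hout.idx _ hs hs0 _ hs' hs0')
    (by
      obtain ⟨s, hs, hs0⟩ := hout.ne
      obtain ⟨s', rfl⟩ := hπs s
      exact ⟨s', by rw [hS₁]; exact hs, by rw [hS₀]; exact hs0⟩)
    (Nat.Coprime.coprime_dvd_left (card_dvd_of_le inf_le_left) hWodd)
    (inf_le_left.trans (hWN.trans hNS₁)) inf_le_right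
  have hdvd : (Nat.card E - 1) ∣ (normalizer (S₀ : Set X)).relIndex W := by
    have h1 := card_sub_one_dvd hEeven (fun n _ e he => hEn n e he) htr hWN ⟨a, hWrel⟩
      ((hE e₀).1 he2) he1
    have h2 := relIndex_dvd_of_le_left W hW₀e
    rw [inf_relIndex_left] at h2
    exact h1.trans h2
  -- the index set
  letI : Fintype (W ⧸ (normalizer (S₀ : Set X)).subgroupOf W) := Fintype.ofFinite _
  have hcardι : Fintype.card (W ⧸ (normalizer (S₀ : Set X)).subgroupOf W) =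
      (normalizer (S₀ : Set X)).relIndex W := by
    rw [← Nat.card_eq_fintype_card]; rfl
  obtain ⟨Ab, hAbL, hAbc, hAbr, hAbcard⟩ := eigen_family hWL hWT hout
    (fun i : W ⧸ (normalizer (S₀ : Set X)).subgroupOf W => π ((Quotient.out i : W) : X))
    (fun i => ⟨_, (Quotient.out i : W).2, rfl⟩)
    (by
      intro i j hij
      obtain ⟨wi, hwi⟩ : ∃ wi : W, wi = Quotient.out i := ⟨_, rfl⟩
      obtain ⟨wj, hwj⟩ : ∃ wj : W, wj = Quotient.out j := ⟨_, rfl⟩
      rw [← hwi, ← hwj]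
      have h1 : ((wi : X)⁻¹ * (wj : X)) ∉ normalizer (S₀ : Set X) := by
        intro h
        apply hij
        have h2 : (QuotientGroup.mk wi : W ⧸ (normalizer (S₀ : Set X)).subgroupOf W) =
            QuotientGroup.mk wj := by
          rw [QuotientGroup.eq, mem_subgroupOf]
          exact h
        rw [hwi, hwj, QuotientGroup.out_eq', QuotientGroup.out_eq'] at h2
        exact h2
      have h2 : ∃ x ∈ S₀, ((wi : X)⁻¹ * (wj : X)) * x * ((wi : X)⁻¹ * (wj : X))⁻¹ ∉ S₀ := by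
        by_contra hcon
        push Not at hcon
        exact h1 (mem_normalizer_of_conj_mem hcon)
      obtain ⟨x, hx, hx'⟩ := h2
      refine ⟨π ((wj : X) * x * (wj : X)⁻¹), ?_, ?_, ?_⟩
      · have h3 : (wj : X) * x * (wj : X)⁻¹ ∈ S₁ :=
          (mem_normalizer_iff.1 (hNS₁ (hWN wj.2)) x).1 (hS₀₁ hx)
        rw [hS₁] at h3
        exact h3
      · rw [← map_inv, ← map_mul, ← map_mul]
        have h3 : (wj : X)⁻¹ * ((wj : X) * x * (wj : X)⁻¹) * (wj : X) = x := by group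
        rw [h3]
        rw [hS₀] at hx
        exact hx
      · rw [← map_inv, ← map_mul, ← map_mul]
        have h3 : (wi : X)⁻¹ * ((wj : X) * x * (wj : X)⁻¹) * (wi : X) =
            ((wi : X)⁻¹ * (wj : X)) * x * ((wi : X)⁻¹ * (wj : X))⁻¹ := by group
        rw [h3]
        rw [hS₀] at hx'
        exact hx')
  rw [hcardι] at hAbcard
  haveI : Fact r.Prime := ⟨hout.hr⟩
  have hAbp : IsPGroup r Ab := by
    intro x
    exact ⟨1, by rw [pow_one]; exact Subtype.ext (by simpa using hAbr x x.2)⟩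
  obtain ⟨k, hk⟩ := IsPGroup.iff_card.1 hAbp
  have hAbodd : (Nat.card Ab).Coprime 2 := Nat.Coprime.coprime_dvd_left (card_dvd_of_le hAbL) hLodd
  obtain ⟨A, hAmap, hAP, hAcard⟩ := exists_lift_odd P hP Ab hAbodd
  rw [← hπ] at hAmap
  have hAmem : ∀ x ∈ A, π x ∈ Ab := by
    intro x hx
    rw [← hAmap]; exact ⟨x, hx, rfl⟩
  have hkill : ∀ x ∈ A, π x = 1 → x = 1 := by
    intro x hx h1
    have h3 : x ∈ A ⊓ P := ⟨hx, (hker x).1 h1⟩
    rwa [hAP, mem_bot] at h3
  have hrank := rank_apply P E A hP hCP hE hEP r hout.hr2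
    (fun x hx e he => hKE x (hAbL (hAmem x hx)) e he)
    (by
      intro x hx y hy
      have h1 : x * y * (y * x)⁻¹ = 1 := by
        apply hkill _ (mul_mem (mul_mem hx hy) (inv_mem (mul_mem hy hx)))
        rw [map_mul, map_inv, map_mul, map_mul, hAbc _ (hAmem x hx) _ (hAmem y hy), mul_inv_cancel]
      exact mul_inv_eq_one.1 h1)
    (by
      intro x hx
      apply hkill _ (pow_mem hx r)
      rw [map_pow]; exact hAbr _ (hAmem x hx))
    k (by rw [hAcard, hk])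
  -- arithmetic
  rw [hk] at hAbcard
  have h1 : (normalizer (S₀ : Set X)).relIndex W ≤ k :=
    (Nat.pow_le_pow_iff_right hout.hr.one_lt).1 hAbcard
  have h2 : Nat.card E - 1 ≤ (normalizer (S₀ : Set X)).relIndex W :=
    Nat.le_of_dvd (Nat.pos_of_ne_zero (index_ne_zero_of_finite)) hdvd
  by_contra hcon
  push Not at hcon
  have hk2 : 2 ≤ k := by omega
  have h3 : k - 1 < 2 ^ (k - 1) := Nat.lt_two_pow_self
  have h4 : 2 ^ k = 2 * 2 ^ (k - 1) := by
    rw [← pow_succ']; congr 1; omega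
  omega

end Cfsg.Agent.Lib.Helper66
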