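import Mathlib
import Cfsg.Agent.Lib.Helper66.OneClassB
import Cfsg.Agent.S3798

set_option autoImplicit false
set_option linter.style.haveILetI false
set_option linter.unusedSectionVars false

/-!
# Solvable groups with one class of involutions: `O(X) = 1` implies `O₂(X)` is a Sylow subgroup
-/

namespace Cfsg.Agent.Lib.Helper66

open Subgroup
open scoped commutatorElement

open Cfsg.Agent.Lib.Helper1 Cfsg.Agent.Lib.Helper30 Cfsg.Agent.Lib.Helper14 in
theorem one_class_core {X : Type*} [Group X] [Finite X] (hXs : Group.IsSolvable X)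
    (h0 : Cfsg.pPrimeCore 2 X = ⊥)
    (hH : ∀ x y : X, orderOf x = 2 → orderOf y = 2 → IsConj x y)
    (htwo : ∃ x y : X, x ≠ y ∧ orderOf x = 2 ∧ orderOf y = 2) :
    ¬ 2 ∣ (Cfsg.pCore 2 X).index ∧
      ∀ x : X, orderOf x = 2 → x ∈ centralizer (Cfsg.pCore 2 X : Set X) := by
  haveI hp : Fact (Nat.Prime 2) := ⟨Nat.prime_two⟩
  have hX : Cfsg.IsPSolvable 2 X := Helper31.isPSolvable_of_isSolvable 2 X
  obtain ⟨T, hT⟩ : ∃ T, T = Cfsg.pCore 2 X := ⟨_, rfl⟩
  rw [← hT]
  haveI hTn : T.Normal := hT ▸ Cfsg.Agent.Lib.Helper1.pCore_normal 2 X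
  have hTp : IsPGroup 2 T := hT ▸ Cfsg.Agent.Lib.Helper1.pCore_isPGroup 2 X
  have hTc : Subgroup.centralizer (T : Set X) ≤ T := hT ▸ Cfsg.Agent.Lib.Helper80.centralizer_pCore_le hX h0
  have princ : ∀ W : Subgroup X, W.Normal → (∃ z ∈ W, orderOf z = 2) →
      ∀ y, orderOf y = 2 → y ∈ W := by
    rintro W hW ⟨z, hz, hzp⟩ y hy
    obtain ⟨c, hc⟩ := isConj_iff.1 (hH z y hzp hy)
    rw [← hc]
    exact hW.conj_mem z hz c
  obtain ⟨x₁, x₂, hx12, hx₁, hx₂⟩ := htwo
  -- T is nontrivial
  have hTne : T ≠ ⊥ := by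
    intro h
    have h1 : Subgroup.centralizer (T : Set X) = ⊤ := by
      rw [h]; simp
    rw [h1, h] at hTc
    have h2 : x₁ ∈ (⊥ : Subgroup X) := hTc (mem_top _)
    rw [mem_bot] at h2
    rw [h2, orderOf_one] at hx₁
    omega
  -- all involutions are in Z(T)
  have hZ : ∀ y, orderOf y = 2 → y ∈ T ⊓ Subgroup.centralizer (T : Set X) := by
    apply princ _ inferInstance
    apply Cfsg.Agent.S3798.exists_order_p (hTp.to_le inf_le_left)
    exact Helper12.inf_centralizer_ne_bot T hTp T le_rfl le_normalizer hTne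
  refine ⟨?_, fun x hx => (hZ x hx).2⟩
  intro hdvd
  -- the subgroup of involutions
  have hsq : ∀ x : X, x ^ 2 = 1 → x ∈ T ⊓ Subgroup.centralizer (T : Set X) := by
    intro x hx
    by_cases hx1 : x = 1
    · rw [hx1]; exact one_mem _
    · exact hZ x (orderOf_eq_prime hx hx1)
  let E : Subgroup X :=
    { carrier := {x | x ^ 2 = 1}
      one_mem' := one_pow _
      mul_mem' := by
        intro a b ha hb
        have hab : Commute a b := (mem_centralizer_iff.1 (hsq b hb).2 a (hsq a ha).1)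
        change (a * b) ^ 2 = 1
        have ha' : a ^ 2 = 1 := ha
        have hb' : b ^ 2 = 1 := hb
        rw [hab.mul_pow, ha', hb', one_mul]
      inv_mem' := by
        intro a ha
        have ha' : a ^ 2 = 1 := ha
        change (a⁻¹) ^ 2 = 1
        rw [inv_pow, ha', inv_one] }
  have hE : ∀ x : X, x ^ 2 = 1 ↔ x ∈ E := fun x => Iff.rfl
  have hord : ∀ x : X, orderOf x = 2 → x ^ 2 = 1 := by
    intro x hx
    rw [← hx]; exact pow_orderOf_eq_one x
  have hne1 : ∀ x : X, orderOf x = 2 → x ≠ 1 := by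
    rintro x hx rfl
    rw [orderOf_one] at hx
    omega
  -- the quotient Y = X / T and K = O_{2,2'}(X)
  obtain ⟨M, hM⟩ : ∃ M, M = Cfsg.pPrimeCore 2 (X ⧸ T) := ⟨_, rfl⟩
  haveI hMn : M.Normal := hM ▸ Cfsg.Agent.Lib.Helper1.pPrimeCore_normal 2 (X ⧸ T)
  have hMc : (Nat.card M).Coprime 2 := hM ▸ Cfsg.Agent.Lib.Helper1.pPrimeCore_coprime 2 (X ⧸ T)
  obtain ⟨K, hK⟩ : ∃ K, K = M.comap (QuotientGroup.mk' T) := ⟨_, rfl⟩
  haveI hKn : K.Normal := hK ▸ inferInstance
  have hTK : T ≤ K := hK ▸ le_comap_mk' T M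
  have hKrel : T.relIndex K = Nat.card M := hK ▸ relIndex_comap_mk' T M
  have hcardY : Nat.card (X ⧸ T) = T.index := (Subgroup.index_eq_card T).symm
  by_cases hz : ∃ z ∈ Subgroup.centralizer (K : Set X), orderOf z = 2
  · have hall := princ _ inferInstance hz
    haveI : Group.IsSolvable (X ⧸ T) :=
      Group.isSolvable_of_surjective (QuotientGroup.mk'_surjective T)
    have hQ2 : Cfsg.pCore 2 (X ⧸ T) = ⊥ := by
      subst hT
      exact Helper31.pCore_quotient_pCore 2
    have hKE : ∀ k : X, QuotientGroup.mk' T k ∈ M → ∀ e ∈ E, k * e = e * k := by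
      intro k hk e he
      by_cases he1 : e = 1
      · rw [he1, mul_one, one_mul]
      · have h1 := hall e (orderOf_eq_prime he he1)
        have hk' : k ∈ K := by rw [hK]; exact hk
        exact mem_centralizer_iff.1 h1 k hk'
    have hMtop : M ≠ ⊤ := by
      intro h
      apply hx12
      obtain ⟨c, hc⟩ := isConj_iff.1 (hH x₁ x₂ hx₁ hx₂)
      have h1 := hKE c (by rw [h]; exact mem_top _) x₁ (hord x₁ hx₁)
      rw [← hc, h1, mul_inv_cancel_right]
    obtain ⟨T', hT'2, hT'c, hfrat, hnc⟩ := exists_elem_two inferInstance hQ2 (hM ▸ hMtop)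
    rw [← hM] at hfrat hnc
    have hcard := one_class_main hXs T E hTp hTc hE (fun e he => (hsq e he).2)
      (by
        intro e he he1 e' he' he1'
        exact isConj_iff.1 (hH e e' (orderOf_eq_prime he he1) (orderOf_eq_prime he' he1')))
      M T' hMc hKE hT'2 hT'c hfrat hnc
      (by
        intro h
        have h1 : x₁ ∈ E := hord x₁ hx₁
        rw [h, mem_bot] at h1
        exact hne1 x₁ hx₁ h1)
    have h3 : 2 < Nat.card E := by
      have hinj : Function.Injective
          (![(1 : E), ⟨x₁, hord x₁ hx₁⟩, ⟨x₂, hord x₂ hx₂⟩] : Fin 3 → E) := by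
        have e1 : (1 : E) ≠ ⟨x₁, hord x₁ hx₁⟩ := fun h => hne1 x₁ hx₁ (congrArg Subtype.val h).symm
        have e2 : (1 : E) ≠ ⟨x₂, hord x₂ hx₂⟩ := fun h => hne1 x₂ hx₂ (congrArg Subtype.val h).symm
        have e3 : (⟨x₁, hord x₁ hx₁⟩ : E) ≠ ⟨x₂, hord x₂ hx₂⟩ := fun h => hx12 (congrArg Subtype.val h)
        intro i j hij
        fin_cases i <;> fin_cases j <;> first | rfl | (exfalso; first | exact e1 hij | exact e2 hij | exact e3 hij | exact e1 hij.symm | exact e2 hij.symm | exact e3 hij.symm)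
      have := Nat.card_le_card_of_injective _ hinj
      rw [Nat.card_fin] at this
      omega
    omega
  · -- a complement B of T in K
    obtain ⟨B, hBc, hKB⟩ : ∃ B : Subgroup X, (Nat.card B).Coprime 2 ∧ K = B ⊔ T := by
      haveI : (T.subgroupOf K).Normal := inferInstance
      have hcop : Nat.Coprime (Nat.card (T.subgroupOf K)) (T.subgroupOf K).index := by
        obtain ⟨n, hn⟩ := IsPGroup.iff_card.1 hTp
        rw [card_subgroupOf hTK, hn]
        change Nat.Coprime _ (T.relIndex K)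
        rw [hKrel]
        exact (Nat.Coprime.pow_right n hMc).symm
      obtain ⟨B', hB'⟩ := Subgroup.exists_right_complement'_of_coprime hcop
      refine ⟨B'.map K.subtype, ?_, ?_⟩
      · rw [Subgroup.card_map_of_injective K.subtype_injective, ← hB'.symm.index_eq_card]
        change Nat.Coprime (T.relIndex K) 2
        rw [hKrel]; exact hMc
      · have h1 := hB'.sup_eq_top
        have h2 := congrArg (Subgroup.map K.subtype) h1
        rw [Subgroup.map_sup, Subgroup.subgroupOf_map_subtype, inf_eq_left.2 hTK,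
          ← MonoidHom.range_eq_map, Subgroup.range_subtype] at h2
        rw [sup_comm]; exact h2.symm
    have hTB : T ⊓ B = ⊥ := inf_eq_bot_of_pgroup_coprime hTp hBc
    have hBK : B ≤ K := hKB ▸ le_sup_left
    -- Frattini argument
    have hfrat : ∀ g : X, ∃ t ∈ T, ∃ n ∈ Subgroup.normalizer (B : Set X), g = t * n := by
      intro g
      have h1 : cj g B ≤ B ⊔ T := by
        rw [← hKB]
        calc cj g B ≤ cj g K := cj_mono g hBK
          _ = K := cj_normal g K
      obtain ⟨x, hx, hle⟩ := le_cj_of_le_sup T hTp B (cj g B) hBc (by rw [card_cj]; exact hBc) h1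
      have heq : cj g B = cj x B := by
        apply Subgroup.eq_of_le_of_card_ge hle
        rw [card_cj, card_cj]
      refine ⟨x, hx, x⁻¹ * g, ?_, by group⟩
      apply mem_normalizer_of_cj_eq
      rw [cj_mul, heq, cj_inv_cj]
    have hD : T ⊓ Subgroup.centralizer (B : Set X) = ⊥ := by
      by_contra hne
      obtain ⟨z, hzD, hzp⟩ := Cfsg.Agent.S3798.exists_order_p (hTp.to_le inf_le_left) hne
      apply hz
      refine ⟨z, ?_, hzp⟩
      have h1 : T ≤ Subgroup.centralizer ({z} : Set X) := by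
        intro t ht
        rw [Subgroup.mem_centralizer_singleton_iff]
        have := (Subgroup.mem_inf.1 (hZ z hzp)).2
        rw [Subgroup.mem_centralizer_iff] at this
        exact (this t ht)
      have h2 : B ≤ Subgroup.centralizer ({z} : Set X) := by
        intro t ht
        rw [Subgroup.mem_centralizer_singleton_iff]
        have := (Subgroup.mem_inf.1 hzD).2
        rw [Subgroup.mem_centralizer_iff] at this
        exact (this t ht)
      rw [Subgroup.mem_centralizer_iff]
      intro k hk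
      have h3 : k ∈ Subgroup.centralizer ({z} : Set X) := by
        have : K ≤ Subgroup.centralizer ({z} : Set X) := hKB ▸ sup_le h2 h1
        exact this hk
      exact Subgroup.mem_centralizer_singleton_iff.1 h3
    obtain ⟨y, hy⟩ := exists_prime_orderOf_dvd_card' 2 (hcardY ▸ hdvd)
    obtain ⟨g, rfl⟩ := QuotientGroup.mk'_surjective T y
    obtain ⟨t, ht, n, hn, rfl⟩ := hfrat g
    have hmk : QuotientGroup.mk' T (t * n) = QuotientGroup.mk' T n := by
      rw [map_mul, QuotientGroup.mk'_apply, (QuotientGroup.eq_one_iff t).2 ht, one_mul]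
    rw [hmk] at hy
    have hnp : n ^ 2 ∈ T := by
      rw [← QuotientGroup.eq_one_iff, ← QuotientGroup.mk'_apply, map_pow, ← hy, pow_orderOf_eq_one]
    have hnp2 : n ^ 2 ∈ Subgroup.centralizer (B : Set X) := by
      rw [Subgroup.mem_centralizer_iff]
      intro b hb
      have hN := Subgroup.pow_mem _ hn 2
      have h1 : (n ^ 2) * b * (n ^ 2)⁻¹ ∈ B := (Subgroup.mem_normalizer_iff.1 hN b).1 hb
      have h2 : (n ^ 2) * b * (n ^ 2)⁻¹ * b⁻¹ ∈ T ⊓ B := by
        refine Subgroup.mem_inf.2 ⟨?_, B.mul_mem h1 (B.inv_mem hb)⟩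
        have : (n ^ 2) * b * (n ^ 2)⁻¹ * b⁻¹ = (n ^ 2) * (b * (n ^ 2)⁻¹ * b⁻¹) := by group
        rw [this]
        exact T.mul_mem hnp (hTn.conj_mem _ (T.inv_mem hnp) b)
      rw [hTB, Subgroup.mem_bot] at h2
      have h3 : (n ^ 2) * b = b * (n ^ 2) := by
        have := congrArg (fun w => w * b * n ^ 2) h2
        simpa [mul_assoc] using this
      exact h3.symm
    have hnp1 : n ^ 2 = 1 := by
      have : n ^ 2 ∈ T ⊓ Subgroup.centralizer (B : Set X) := Subgroup.mem_inf.2 ⟨hnp, hnp2⟩
      rwa [hD, Subgroup.mem_bot] at this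
    have hn1 : n ≠ 1 := by
      intro h
      rw [h, map_one, orderOf_one] at hy
      omega
    have hnT : n ∈ T := (Subgroup.mem_inf.1 (hZ n (orderOf_eq_prime hnp1 hn1))).1
    rw [QuotientGroup.mk'_apply, (QuotientGroup.eq_one_iff n).2 hnT, orderOf_one] at hy
    omega

end Cfsg.Agent.Lib.Helper66
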