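import Mathlib
import Cfsg.Agent.Lib.Helper66.FrobAct
import Cfsg.Agent.Lib.Helper90.CoprimeAbelian
import Cfsg.Agent.Lib.Helper28.Cores
import Cfsg.Agent.Lib.Helper1.Hall
import Cfsg.Agent.Lib.Helper14.PSeries

set_option autoImplicit false
set_option linter.style.haveILetI false
set_option linter.unusedSectionVars false

/-!
# Ward's theorem: the key module-theoretic statement

`A ≅ C_p × C_p` acts fixed-point-freely on the solvable group `H` and on the faithful irreducible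
`HA`-module `V`.  Then `H` is nilpotent.  The proof only uses the "norm trick" `frob_trivial`.
-/

namespace Cfsg.Agent.Lib.Helper66

open Subgroup
open scoped commutatorElement

section rank2
variable {Γ : Type*} [Group Γ] [Finite Γ] {A : Subgroup Γ} {p : ℕ}

theorem closure_pair_eq (hp : p.Prime) (hexp : ∀ a ∈ A, a ^ p = 1) (hcard : Nat.card A = p ^ 2)
    {a b : Γ} (ha : a ∈ A) (ha1 : a ≠ 1) (hb : b ∈ A) (hb' : b ∉ zpowers a) :
    closure {a, b} = A := by
  haveI : Fact p.Prime := ⟨hp⟩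
  have hle : closure {a, b} ≤ A := by
    rw [closure_le]
    intro x hx
    rcases hx with rfl | hx
    · exact ha
    · rw [Set.mem_singleton_iff] at hx
      subst hx
      exact hb
  have h1 : zpowers a < closure {a, b} := by
    refine lt_of_le_of_ne (zpowers_le.2 (subset_closure (by simp))) ?_
    intro h
    exact hb' (h ▸ subset_closure (by simp))
  have h2 : Nat.card (zpowers a) = p := by
    rw [Nat.card_zpowers]; exact orderOf_eq_prime (hexp a ha) ha1
  have h3 := Helper30.card_lt_of_lt h1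
  have h4 : Nat.card (closure {a, b} : Subgroup Γ) ∣ p ^ 2 := hcard ▸ card_dvd_of_le hle
  obtain ⟨k, hk, hk'⟩ := (Nat.dvd_prime_pow hp).1 h4
  have h5 : k = 2 := by
    rw [h2, hk'] at h3
    have : 1 < k := by
      by_contra hcon
      have h6 : k ≤ 1 := by omega
      have h7 := Nat.pow_le_pow_right hp.pos h6
      rw [pow_one] at h7
      omega
    omega
  apply eq_of_le_of_card_ge hle
  rw [hcard, hk', h5]

theorem exists_not_mem_zpowers (hp : p.Prime) (hexp : ∀ a ∈ A, a ^ p = 1)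
    (hcard : Nat.card A = p ^ 2) {a : Γ} (ha : a ∈ A) : ∃ b ∈ A, b ∉ zpowers a := by
  by_contra hcon
  push Not at hcon
  have h1 : A ≤ zpowers a := hcon
  have h2 := Nat.le_of_dvd Nat.card_pos (card_dvd_of_le h1)
  rw [hcard, Nat.card_zpowers] at h2
  have h3 : orderOf a ≤ p := Nat.le_of_dvd hp.pos (orderOf_dvd_of_pow_eq_one (hexp a ha))
  have h4 : p < p ^ 2 := by
    have := hp.one_lt
    nlinarith
  omega

theorem mem_zpowers_symm (hp : p.Prime) {a b : Γ} (hap : a ^ p = 1) (hb : b ∈ zpowers a)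
    (hb1 : b ≠ 1) : a ∈ zpowers b := by
  haveI : Fact p.Prime := ⟨hp⟩
  have hbp : b ^ p = 1 := by
    obtain ⟨k, rfl⟩ := hb
    rw [← zpow_natCast, ← zpow_mul, mul_comm, zpow_mul, zpow_natCast, hap, one_zpow]
  have h1 : zpowers b ≤ zpowers a := zpowers_le.2 hb
  have h2 : Nat.card (zpowers b) = p := by
    rw [Nat.card_zpowers]; exact orderOf_eq_prime hbp hb1
  have h3 : Nat.card (zpowers a) ≤ p := by
    rw [Nat.card_zpowers]
    exact Nat.le_of_dvd hp.pos (orderOf_dvd_of_pow_eq_one hap)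
  have h4 := eq_of_le_of_card_ge h1 (by rw [h2]; exact h3)
  rw [h4]
  exact mem_zpowers a

theorem not_isCyclic_of_rank2 (hp : p.Prime) (hexp : ∀ a ∈ A, a ^ p = 1)
    (hcard : Nat.card A = p ^ 2) : ¬ IsCyclic A := by
  intro hc
  obtain ⟨g, hg⟩ := hc.exists_generator
  obtain ⟨b, hb, hb'⟩ := exists_not_mem_zpowers hp hexp hcard g.2
  apply hb'
  obtain ⟨k, hk⟩ := hg ⟨b, hb⟩
  exact ⟨k, by simpa using congrArg Subtype.val hk⟩

end rank2

section defs
variable {Γ V : Type*} [Group Γ] [CommGroup V]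

/-- fixed points of a single element -/
def fixOf (θ : Γ →* MulAut V) (g : Γ) : Subgroup V where
  carrier := {v | θ g v = v}
  mul_mem' := fun {a b} ha hb => by
    change θ g (a * b) = a * b
    rw [map_mul, ha, hb]
  one_mem' := map_one _
  inv_mem' := fun {a} ha => by
    change θ g a⁻¹ = a⁻¹
    rw [map_inv, ha]

/-- the stabilizer of a vector -/
def stabOf (θ : Γ →* MulAut V) (v : V) : Subgroup Γ where
  carrier := {g | θ g v = v}
  mul_mem' := fun {a b} ha hb => by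
    change θ (a * b) v = v
    rw [map_mul, MulAut.mul_apply, hb, ha]
  one_mem' := by
    change θ 1 v = v
    rw [map_one, MulAut.one_apply]
  inv_mem' := fun {a} ha => by
    change θ a⁻¹ v = v
    have h1 : θ a v = v := ha
    calc θ a⁻¹ v = θ a⁻¹ (θ a v) := by rw [h1]
      _ = v := by rw [← MulAut.mul_apply, ← map_mul, inv_mul_cancel, map_one, MulAut.one_apply]

theorem mem_fixOf {θ : Γ →* MulAut V} {g : Γ} {v : V} : v ∈ fixOf θ g ↔ θ g v = v := Iff.rfl
theorem mem_stabOf {θ : Γ →* MulAut V} {g : Γ} {v : V} : g ∈ stabOf θ v ↔ θ g v = v := Iff.rfl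

/-- `[V, K]` -/
def cmV (θ : Γ →* MulAut V) (K : Subgroup Γ) : Subgroup V := Helper90.commSub (K.map θ)

theorem mem_cmV_of (θ : Γ →* MulAut V) {K : Subgroup Γ} {k : Γ} (hk : k ∈ K) (v : V) :
    v⁻¹ * θ k v ∈ cmV θ K :=
  subset_closure ⟨θ k, mem_map_of_mem θ hk, v, rfl⟩

theorem cmV_le (θ : Γ →* MulAut V) {K : Subgroup Γ} {U : Subgroup V}
    (h : ∀ k ∈ K, ∀ v : V, v⁻¹ * θ k v ∈ U) : cmV θ K ≤ U := by
  unfold cmV Helper90.commSub
  rw [closure_le]
  rintro _ ⟨α, ⟨k, hk, rfl⟩, x, rfl⟩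
  exact h k hk x

theorem cmV_invariant (θ : Γ →* MulAut V) {K : Subgroup Γ} {g : Γ} (hg : ∀ k ∈ K, g * k * g⁻¹ ∈ K) :
    ∀ w ∈ cmV θ K, θ g w ∈ cmV θ K := by
  have h1 : cmV θ K ≤ (cmV θ K).comap (θ g).toMonoidHom := by
    apply cmV_le
    intro k hk v
    rw [mem_comap]
    change θ g (v⁻¹ * θ k v) ∈ _
    have h2 : θ g (v⁻¹ * θ k v) = (θ g v)⁻¹ * θ (g * k * g⁻¹) (θ g v) := by
      rw [map_mul, map_inv]
      congr 1
      rw [← MulAut.mul_apply, ← MulAut.mul_apply, ← map_mul, ← map_mul, inv_mul_cancel_right]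
    rw [h2]
    exact mem_cmV_of θ (hg k hk) _
  exact fun w hw => h1 hw

theorem fix_inf_cmV [Finite V] [Finite Γ] (θ : Γ →* MulAut V) {K : Subgroup Γ}
    (hcop : (Nat.card K).Coprime (Nat.card V)) {w : V} (hw : w ∈ cmV θ K)
    (hfix : ∀ k ∈ K, θ k w = w) : w = 1 := by
  have h1 := (Helper90.fitting_abelian (V := V) mul_comm (K.map θ)
    (Nat.Coprime.coprime_dvd_right (card_map_dvd K θ) hcop.symm)).1
  have h2 : w ∈ Helper90.fixedSub (K.map θ) ⊓ Helper90.commSub (K.map θ) := by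
    refine mem_inf.2 ⟨?_, hw⟩
    rintro _ ⟨k, hk, rfl⟩
    exact hfix k hk
  rw [h1] at h2
  exact mem_bot.1 h2

/-- If `u ∉ [V,K]` lies in a `K`-invariant subgroup `U`, then `U` contains a nontrivial fixed point of `K`. -/
theorem exists_fixed_of_not_mem_cmV [Finite V] [Finite Γ] (θ : Γ →* MulAut V) {K : Subgroup Γ}
    (hcop : (Nat.card K).Coprime (Nat.card V)) {U : Subgroup V} (hU : ∀ k ∈ K, ∀ u ∈ U, θ k u ∈ U)
    {u : V} (hu : u ∈ U) (hu' : u ∉ cmV θ K) : ∃ f ∈ U, f ≠ 1 ∧ ∀ k ∈ K, θ k f = f := by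
  classical
  have : Fintype (K.map θ) := Fintype.ofFinite _
  refine ⟨Helper90.normMap (K.map θ) u, ?_, ?_, ?_⟩
  · rw [Helper90.normMap_apply]
    apply Subgroup.prod_mem
    rintro ⟨_, k, hk, rfl⟩ _
    exact hU k hk u hu
  · intro h1
    apply hu'
    have h2 := Helper90.pow_card_eq (K.map θ) u
    rw [h1, one_mul] at h2
    have h3 : u ^ Fintype.card (K.map θ) ∈ cmV θ K := by
      rw [h2]
      apply Subgroup.prod_mem
      rintro ⟨_, k, hk, rfl⟩ _
      exact inv_mem (mem_cmV_of θ hk u)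
    have hc : (Nat.card V).Coprime (Fintype.card (K.map θ)) := by
      rw [← Nat.card_eq_fintype_card]
      exact Nat.Coprime.coprime_dvd_right (card_map_dvd K θ) hcop.symm
    have h4 : (powCoprime hc).symm (u ^ Fintype.card (K.map θ)) = u := by
      rw [Equiv.symm_apply_eq]
      rfl
    rw [← h4, powCoprime_symm_apply]
    exact Subgroup.zpow_mem _ h3 _
  · intro k hk
    exact Helper90.normMap_fixed (K.map θ) (θ k) (mem_map_of_mem θ hk) u

theorem theta_comm (θ : Γ →* MulAut V) {a k : Γ} (hak : a * k = k * a) (w : V) :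
    θ a (θ k w) = θ k (θ a w) := by
  rw [← MulAut.mul_apply, ← map_mul, hak, map_mul, MulAut.mul_apply]

theorem theta_inv_apply (θ : Γ →* MulAut V) (g : Γ) (w : V) : θ g⁻¹ (θ g w) = w := by
  rw [← MulAut.mul_apply, ← map_mul, inv_mul_cancel, map_one, MulAut.one_apply]

theorem theta_apply_inv (θ : Γ →* MulAut V) (g : Γ) (w : V) : θ g (θ g⁻¹ w) = w := by
  rw [← MulAut.mul_apply, ← map_mul, mul_inv_cancel, map_one, MulAut.one_apply]

/-- elements `u` stabilizing `W` such that `u` and `g u g⁻¹` agree on `W` -/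
def agree (θ : Γ →* MulAut V) (W : Subgroup V) (g : Γ) : Subgroup Γ where
  carrier := {u | (∀ w ∈ W, θ u w ∈ W) ∧ (∀ w ∈ W, θ u⁻¹ w ∈ W) ∧
    ∀ w ∈ W, θ (g * u * g⁻¹) w = θ u w}
  mul_mem' := by
    rintro u u' ⟨h1, h2, h3⟩ ⟨h1', h2', h3'⟩
    refine ⟨?_, ?_, ?_⟩
    · intro w hw
      rw [map_mul, MulAut.mul_apply]
      exact h1 _ (h1' w hw)
    · intro w hw
      rw [mul_inv_rev, map_mul, MulAut.mul_apply]
      exact h2' _ (h2 w hw)
    · intro w hw
      have : g * (u * u') * g⁻¹ = (g * u * g⁻¹) * (g * u' * g⁻¹) := by group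
      rw [this, map_mul, MulAut.mul_apply, h3' w hw, h3 _ (h1' w hw), map_mul, MulAut.mul_apply]
  one_mem' := by
    refine ⟨?_, ?_, ?_⟩
    · intro w hw; simpa using hw
    · intro w hw; simpa using hw
    · intro w _; simp
  inv_mem' := by
    rintro u ⟨h1, h2, h3⟩
    refine ⟨h2, by simpa using h1, ?_⟩
    intro w hw
    have h4 := h3 _ (h2 w hw)
    rw [theta_apply_inv] at h4
    have : g * u⁻¹ * g⁻¹ = (g * u * g⁻¹)⁻¹ := by group
    rw [this]
    conv_lhs => rw [← h4]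
    rw [theta_inv_apply]

/-- elements `g` with `[g, Q]` fixing `w` (`Q` normal) -/
def commStab (θ : Γ →* MulAut V) (Q : Subgroup Γ) (hQ : Q.Normal) (w : V) : Subgroup Γ where
  carrier := {g | ∀ u ∈ Q, g * u * g⁻¹ * u⁻¹ ∈ stabOf θ w}
  mul_mem' := by
    intro g g' hg hg' u hu
    have : g * g' * u * (g * g')⁻¹ * u⁻¹
        = (g * (g' * u * g'⁻¹) * g⁻¹ * (g' * u * g'⁻¹)⁻¹) * (g' * u * g'⁻¹ * u⁻¹) := by group
    rw [this]
    exact mul_mem (hg _ (hQ.conj_mem u hu g')) (hg' u hu)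
  one_mem' := by
    intro u _
    simp
  inv_mem' := by
    intro g hg u hu
    have h1 := hg (g⁻¹ * u * g) (by simpa using hQ.conj_mem u hu g⁻¹)
    have : g⁻¹ * u * g⁻¹⁻¹ * u⁻¹ = (g * (g⁻¹ * u * g) * g⁻¹ * (g⁻¹ * u * g)⁻¹)⁻¹ := by group
    rw [this]
    exact inv_mem h1

end defs

section ward
variable {Γ V : Type*} [Group Γ] [Finite Γ] [CommGroup V] [Finite V]

/-- The hypotheses: `A ≅ C_p²` acts on `H`, `Γ = HA` acts irreducibly on `V`, faithfully for `H`, without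
fixed points of `A` on `H` and `V`; `Q ≤ H` is a normal `q`-subgroup of `Γ`, of order prime to `|V|`, whose
centre has no fixed points on `V`. -/
structure WardQ (θ : Γ →* MulAut V) (H A Q : Subgroup Γ) (p q : ℕ) : Prop where
  hp : p.Prime
  hq : q.Prime
  hpq : p ≠ q
  Hn : H.Normal
  sup : H ⊔ A = ⊤
  comm : ∀ a ∈ A, ∀ b ∈ A, a * b = b * a
  exp : ∀ a ∈ A, a ^ p = 1
  card : Nat.card A = p ^ 2
  cop : (Nat.card A).Coprime (Nat.card H)
  solH : Group.IsSolvable H
  fixH : ∀ x ∈ H, (∀ a ∈ A, a * x = x * a) → x = 1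
  fixV : ∀ v : V, (∀ a ∈ A, θ a v = v) → v = 1
  faith : ∀ x ∈ H, (∀ v, θ x v = v) → x = 1
  irr : ∀ W : Subgroup V, (∀ g : Γ, ∀ w ∈ W, θ g w ∈ W) → W = ⊥ ∨ W = ⊤
  Qn : Q.Normal
  QH : Q ≤ H
  Qq : IsPGroup q Q
  copQV : (Nat.card Q).Coprime (Nat.card V)
  fixZ : ∀ v : V, (∀ z ∈ Q ⊓ centralizer (Q : Set Γ), θ z v = v) → v = 1

namespace WardQ
variable {θ : Γ →* MulAut V} {H A Q : Subgroup Γ} {p q : ℕ} (h : WardQ θ H A Q p q)
include h

theorem fixH2 {a b x : Γ} (ha : a ∈ A) (ha1 : a ≠ 1) (hb : b ∈ A) (hb' : b ∉ zpowers a)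
    (hx : x ∈ H) (hxa : a * x = x * a) (hxb : b * x = x * b) : x = 1 := by
  apply h.fixH x hx
  intro c hc
  rw [← closure_pair_eq h.hp h.exp h.card ha ha1 hb hb'] at hc
  have h1 : closure {a, b} ≤ centralizer {x} := by
    rw [closure_le]
    intro y hy
    rcases hy with rfl | hy
    · exact mem_centralizer_singleton_iff.2 hxa
    · rw [Set.mem_singleton_iff] at hy
      subst hy
      exact mem_centralizer_singleton_iff.2 hxb
  exact mem_centralizer_singleton_iff.1 (h1 hc)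

theorem fixV2 {a b : Γ} {v : V} (ha : a ∈ A) (ha1 : a ≠ 1) (hb : b ∈ A) (hb' : b ∉ zpowers a)
    (hva : θ a v = v) (hvb : θ b v = v) : v = 1 := by
  apply h.fixV v
  intro c hc
  rw [← closure_pair_eq h.hp h.exp h.card ha ha1 hb hb'] at hc
  have h1 : closure {a, b} ≤ stabOf θ v := by
    rw [closure_le]
    intro y hy
    rcases hy with rfl | hy
    · exact hva
    · rw [Set.mem_singleton_iff] at hy
      subst hy
      exact hvb
  exact h1 hc

omit h [Finite Γ] in
theorem conj_mem_ca {K : Subgroup Γ} (hK : K.Normal) {a b k : Γ} (hab : a * b = b * a)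
    (hk : k ∈ K ⊓ centralizer {a}) : b * k * b⁻¹ ∈ K ⊓ centralizer {a} := by
  refine mem_inf.2 ⟨hK.conj_mem k hk.1 b, mem_centralizer_singleton_iff.2 ?_⟩
  have h1 : Commute k a := mem_centralizer_singleton_iff.1 hk.2
  have h2 : Commute b a := hab.symm
  exact ((h2.mul_left h1).mul_left h2.inv_left)

theorem Zn : (Q ⊓ centralizer (Q : Set Γ)).Normal := by
  haveI := h.Qn
  infer_instance

theorem cop_le {K : Subgroup Γ} (hK : K ≤ Q) : (Nat.card K).Coprime (Nat.card V) :=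
  Nat.Coprime.coprime_dvd_left (card_dvd_of_le hK) h.copQV

theorem gen_le {K T : Subgroup Γ} (hKH : K ≤ H) (hAK : A ≤ normalizer (K : Set Γ))
    (hT : ∀ b ∈ A, b ≠ 1 → K ⊓ centralizer {b} ≤ T) : K ≤ T := by
  haveI : IsMulCommutative A := ⟨⟨fun a b => Subtype.ext (h.comm a a.2 b b.2)⟩⟩
  have h1 := Helper54.iSup_inf_centralizer_eq_of_not_isCyclic A K
    (not_isCyclic_of_rank2 h.hp h.exp h.card) hAK
    (Nat.Coprime.coprime_dvd_right (card_dvd_of_le hKH) h.cop)
  rw [← h1]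
  exact iSup₂_le (fun b hb => hT b hb.1 hb.2)

/-- (2a) `Z_a` centralizes `C_V(a)`. -/
theorem fix_a {a z : Γ} {v : V} (ha : a ∈ A) (ha1 : a ≠ 1)
    (hz : z ∈ (Q ⊓ centralizer (Q : Set Γ)) ⊓ centralizer {a}) (hv : θ a v = v) : θ z v = v := by
  obtain ⟨b, hb, hb'⟩ := exists_not_mem_zpowers h.hp h.exp h.card ha
  refine frob_trivial θ ((Q ⊓ centralizer (Q : Set Γ)) ⊓ centralizer {a}) b p h.hp (h.exp b hb)
    ?_ ?_ (fixOf θ a) ?_ ?_ ?_ ?_ z hz v hv
  · intro k hk
    exact conj_mem_ca h.Zn (h.comm a ha b hb) hk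
  · intro k hk hbk
    apply h.fixH2 ha ha1 hb hb' (h.QH hk.1.1)
    · exact (mem_centralizer_singleton_iff.1 hk.2).symm
    · exact mul_inv_eq_iff_eq_mul.1 hbk
  · intro k hk w hw
    rw [mem_fixOf] at hw ⊢
    rw [theta_comm θ (mem_centralizer_singleton_iff.1 hk.2).symm, hw]
  · intro w hw
    rw [mem_fixOf] at hw ⊢
    rw [theta_comm θ (h.comm a ha b hb), hw]
  · intro w hw hbw
    exact h.fixV2 ha ha1 hb hb' hw hbw
  · exact h.cop_le (inf_le_left.trans inf_le_left)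

/-- (2b) `a` has no fixed points on `W_a = [V, Z_a]`. -/
theorem fix_wa {a : Γ} {w : V} (ha : a ∈ A) (ha1 : a ≠ 1)
    (hw : w ∈ cmV θ ((Q ⊓ centralizer (Q : Set Γ)) ⊓ centralizer {a})) (hfix : θ a w = w) : w = 1 :=
  fix_inf_cmV θ (h.cop_le (inf_le_left.trans inf_le_left)) hw
    (fun _ hz => h.fix_a ha ha1 hz hfix)

theorem Q_stab_wa {a u : Γ} {w : V} (hu : u ∈ Q)
    (hw : w ∈ cmV θ ((Q ⊓ centralizer (Q : Set Γ)) ⊓ centralizer {a})) :
    θ u w ∈ cmV θ ((Q ⊓ centralizer (Q : Set Γ)) ⊓ centralizer {a}) := by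
  refine cmV_invariant θ ?_ w hw
  intro k hk
  have h1 : u * k = k * u := mem_centralizer_iff.1 hk.1.2 u hu
  rw [h1, mul_inv_cancel_right]
  exact hk

theorem A_stab_wa {a c : Γ} {w : V} (ha : a ∈ A) (hc : c ∈ A)
    (hw : w ∈ cmV θ ((Q ⊓ centralizer (Q : Set Γ)) ⊓ centralizer {a})) :
    θ c w ∈ cmV θ ((Q ⊓ centralizer (Q : Set Γ)) ⊓ centralizer {a}) :=
  cmV_invariant θ (fun _ hk => conj_mem_ca h.Zn (h.comm a ha c hc) hk) w hw

/-- (2c) `Q_b` acts trivially on `W_a` for `b ∉ ⟨a⟩`. -/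
theorem triv_on_wa {a b u : Γ} {w : V} (ha : a ∈ A) (ha1 : a ≠ 1) (hb : b ∈ A)
    (hb' : b ∉ zpowers a) (hu : u ∈ Q ⊓ centralizer {b})
    (hw : w ∈ cmV θ ((Q ⊓ centralizer (Q : Set Γ)) ⊓ centralizer {a})) : θ u w = w := by
  refine frob_trivial θ (Q ⊓ centralizer {b}) a p h.hp (h.exp a ha)
    ?_ ?_ (cmV θ ((Q ⊓ centralizer (Q : Set Γ)) ⊓ centralizer {a})) ?_ ?_ ?_ ?_ u hu w hw
  · intro k hk
    exact conj_mem_ca h.Qn (h.comm b hb a ha) hk
  · intro k hk hak
    apply h.fixH2 ha ha1 hb hb' (h.QH hk.1)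
    · exact mul_inv_eq_iff_eq_mul.1 hak
    · exact (mem_centralizer_singleton_iff.1 hk.2).symm
  · intro k hk w hw
    exact h.Q_stab_wa hk.1 hw
  · intro w hw
    exact h.A_stab_wa ha ha hw
  · intro w hw haw
    exact h.fix_wa ha ha1 hw haw
  · exact h.cop_le inf_le_left

/-- (2d) `a` and the identity induce the same action of `Q` on `W_a`. -/
theorem a_agree {a u : Γ} {w : V} (ha : a ∈ A) (ha1 : a ≠ 1) (hu : u ∈ Q)
    (hw : w ∈ cmV θ ((Q ⊓ centralizer (Q : Set Γ)) ⊓ centralizer {a})) :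
    θ (a * u * a⁻¹) w = θ u w := by
  have h1 : Q ≤ agree θ (cmV θ ((Q ⊓ centralizer (Q : Set Γ)) ⊓ centralizer {a})) a := by
    haveI := h.Qn
    apply h.gen_le h.QH (by rw [normalizer_eq_top]; exact le_top)
    intro b hb hb1 u hu
    refine ⟨fun w hw => h.Q_stab_wa hu.1 hw, fun w hw => h.Q_stab_wa (inv_mem hu.1) hw, ?_⟩
    intro w hw
    by_cases hba : b ∈ zpowers a
    · have h2 := mem_zpowers_symm h.hp (h.exp a ha) hba hb1
      obtain ⟨k, rfl⟩ := h2
      have h3 : Commute u b := mem_centralizer_singleton_iff.1 hu.2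
      have h4 : Commute u (b ^ k) := h3.zpow_right k
      have h5 : b ^ k * u * (b ^ k)⁻¹ = u := by rw [← h4.eq, mul_inv_cancel_right]
      rw [h5]
    · rw [h.triv_on_wa ha ha1 hb hba hu hw,
        h.triv_on_wa ha ha1 hb hba (conj_mem_ca h.Qn (h.comm b hb a ha) hu) hw]
  exact (h1 hu).2.2 w hw

theorem inf_eq_bot : H ⊓ A = ⊥ := (disjoint_of_coprime_natCard h.cop.symm).eq_bot

theorem index_eq : H.index = p ^ 2 := by
  haveI := h.Hn
  have h1 := Helper30.card_sup_eq_mul H A h.inf_eq_bot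
  rw [h.sup, card_top, h.card] at h1
  have h2 := H.card_mul_index
  rw [h1] at h2
  exact Nat.eq_of_mul_eq_mul_left Nat.card_pos h2

/-- (2e) `H` stabilizes `W_a`. -/
theorem H_stab_wa {a x : Γ} {w : V} (ha : a ∈ A) (ha1 : a ≠ 1) (hx : x ∈ H)
    (hw : w ∈ cmV θ ((Q ⊓ centralizer (Q : Set Γ)) ⊓ centralizer {a})) :
    θ x w ∈ cmV θ ((Q ⊓ centralizer (Q : Set Γ)) ⊓ centralizer {a}) := by
  by_contra hcon
  haveI : Fact p.Prime := ⟨h.hp⟩
  have hQn := h.Qn
  have hZn := h.Zn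
  have hHn := h.Hn
  obtain ⟨Z, hZ⟩ : ∃ Z : Subgroup Γ, Z = Q ⊓ centralizer (Q : Set Γ) := ⟨_, rfl⟩
  rw [← hZ] at hw hcon hZn
  have hZQ : Z ≤ Q := hZ ▸ inf_le_left
  obtain ⟨U, hU⟩ : ∃ U : Subgroup V, U = (cmV θ (Z ⊓ centralizer {a})).map (θ x).toMonoidHom :=
    ⟨_, rfl⟩
  have hUZ : ∀ z ∈ Z, ∀ u ∈ U, θ z u ∈ U := by
    intro z hz u hu
    rw [hU] at hu ⊢
    obtain ⟨w', hw', rfl⟩ := hu
    refine ⟨θ (x⁻¹ * z * x) w', ?_, ?_⟩
    · have h1 : x⁻¹ * z * x ∈ Q := by simpa using hQn.conj_mem z (hZQ hz) x⁻¹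
      have h2 := h.Q_stab_wa (a := a) h1 (w := w') (by rw [← hZ]; exact hw')
      rw [← hZ] at h2
      exact h2
    · change θ x (θ (x⁻¹ * z * x) w') = θ z (θ x w')
      rw [← MulAut.mul_apply, ← MulAut.mul_apply, ← map_mul, ← map_mul]
      congr 2
      group
  obtain ⟨f, hfU, hf1, hffix⟩ := exists_fixed_of_not_mem_cmV θ
    (h.cop_le (inf_le_left.trans hZQ)) (U := U) (fun k hk => hUZ k hk.1)
    (u := θ x w) (by rw [hU]; exact mem_map_of_mem _ hw) hcon
  have hex : ∃ b ∈ A, b ≠ 1 ∧ ∃ z ∈ Z ⊓ centralizer {b}, θ z f ≠ f := by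
    by_contra hc
    push Not at hc
    have h1 : Z ≤ stabOf θ f :=
      h.gen_le (hZQ.trans h.QH) (by rw [normalizer_eq_top]; exact le_top)
        (fun b hb hb1 z hz => hc b hb hb1 z hz)
    exact hf1 (h.fixZ f (fun z hz => h1 (by rw [hZ]; exact hz)))
  obtain ⟨b, hb, hb1, z, hz, hzf⟩ := hex
  have hb' : b ∉ zpowers a := by
    intro hba
    obtain ⟨k, rfl⟩ := mem_zpowers_symm h.hp (h.exp a ha) hba hb1
    have h3 : Commute z b := mem_centralizer_singleton_iff.1 hz.2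
    exact hzf (hffix z (mem_inf.2 ⟨hz.1, mem_centralizer_singleton_iff.2 (h3.zpow_right k).eq⟩))
  have ha' : a ∉ zpowers b := by
    intro hab
    exact hb' (mem_zpowers_symm h.hp (h.exp b hb) hab ha1)
  obtain ⟨w1, hw1def⟩ : ∃ w1 : V, w1 = f⁻¹ * θ z f := ⟨_, rfl⟩
  have hw1 : w1 ≠ 1 := by
    intro h0
    rw [hw1def] at h0
    exact hzf (inv_mul_eq_one.1 h0).symm
  have hw1U : w1 ∈ U := hw1def ▸ U.mul_mem (U.inv_mem hfU) (hUZ z hz.1 f hfU)
  have hw1W : w1 ∈ cmV θ (Z ⊓ centralizer {b}) := hw1def ▸ mem_cmV_of θ hz f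
  rw [hU] at hw1U
  obtain ⟨w2, hw2, hw21⟩ := hw1U
  change θ x w2 = w1 at hw21
  -- the subgroup `T`
  have hbT : b ∈ commStab θ Q hQn w1 := by
    intro u hu
    rw [mem_stabOf, map_mul, MulAut.mul_apply]
    have h1 := h.Q_stab_wa (a := b) (inv_mem hu) (w := w1) (by rw [← hZ]; exact hw1W)
    rw [h.a_agree hb hb1 hu h1, theta_apply_inv]
  have hxaT : x * a * x⁻¹ ∈ commStab θ Q hQn w1 := by
    intro u hu
    rw [mem_stabOf]
    have hu' : x⁻¹ * u * x ∈ Q := by simpa using hQn.conj_mem u hu x⁻¹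
    have h0 : x * a * x⁻¹ * u * (x * a * x⁻¹)⁻¹ * u⁻¹
        = x * ((a * (x⁻¹ * u * x) * a⁻¹) * (x⁻¹ * u * x)⁻¹) * x⁻¹ := by group
    have h1 : θ x⁻¹ w1 = w2 := by rw [← hw21, theta_inv_apply]
    have hw2' : w2 ∈ cmV θ ((Q ⊓ centralizer (Q : Set Γ)) ⊓ centralizer {a}) := by
      rw [← hZ]; exact hw2
    rw [h0, map_mul, map_mul, MulAut.mul_apply, MulAut.mul_apply, h1, map_mul, MulAut.mul_apply,
      h.a_agree ha ha1 hu' (h.Q_stab_wa (inv_mem hu') hw2'), theta_apply_inv, hw21]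
  obtain ⟨T, hT⟩ : ∃ T : Subgroup Γ, T = commStab θ Q hQn w1 := ⟨_, rfl⟩
  rw [← hT] at hbT hxaT
  have hTH : T ⊔ H = ⊤ := by
    rw [eq_top_iff, ← h.sup]
    apply sup_le le_sup_right
    rw [← closure_pair_eq h.hp h.exp h.card ha ha1 hb hb', closure_le]
    intro y hy
    rcases hy with rfl | hy
    · have h1 : y = x⁻¹ * (x * y * x⁻¹) * x := by group
      rw [h1]
      exact mul_mem (mul_mem (mem_sup_right (inv_mem hx)) (mem_sup_left hxaT)) (mem_sup_right hx)
    · rw [Set.mem_singleton_iff] at hy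
      subst hy
      exact mem_sup_left hbT
  have hcardT : p ^ 2 ∣ Nat.card T := by
    have h1 := relIndex_sup_right T H
    rw [hTH, relIndex_top_right, h.index_eq] at h1
    rw [h1]
    exact relIndex_dvd_card H T
  obtain ⟨P0, hP0⟩ := Sylow.exists_subgroup_card_pow_prime p hcardT
  have hPcard : Nat.card (P0.map T.subtype) = Nat.card A := by
    rw [card_map_of_injective T.subtype_injective, hP0, h.card]
  obtain ⟨y, hy, hPy⟩ := Helper30.sz_conj H A (P0.map T.subtype)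
    (by rw [normalizer_eq_top]; exact le_top) (Or.inl h.solH) h.cop.symm
    (by rw [h.sup]; exact le_top) hPcard
  have hyT : ∀ c ∈ A, y * c * y⁻¹ ∈ T := by
    intro c hc
    have h1 : y * c * y⁻¹ ∈ P0.map T.subtype := by
      rw [hPy]; exact Helper30.conj_mem_cj hc
    exact map_subtype_le P0 h1
  have h3 : ∀ c ∈ A, ∀ u ∈ Q, c * u * c⁻¹ * u⁻¹ ∈ stabOf θ (θ y⁻¹ w1) := by
    intro c hc u hu
    have h4 := hyT c hc
    rw [hT] at h4
    have h5 := h4 (y * u * y⁻¹) (hQn.conj_mem u hu y)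
    have h6 : y * c * y⁻¹ * (y * u * y⁻¹) * (y * c * y⁻¹)⁻¹ * (y * u * y⁻¹)⁻¹
        = y * (c * u * c⁻¹ * u⁻¹) * y⁻¹ := by group
    rw [h6, mem_stabOf, map_mul, map_mul, MulAut.mul_apply, MulAut.mul_apply] at h5
    rw [mem_stabOf]
    conv_rhs => rw [← h5]
    rw [theta_inv_apply]
  have h4 : ⁅Q, A⁆ ≤ stabOf θ (θ y⁻¹ w1) := by
    rw [commutator_le]
    intro u hu c hc
    have h5 : ⁅u, c⁆ = (c * u * c⁻¹ * u⁻¹)⁻¹ := by
      rw [commutatorElement_def]; group
    rw [h5]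
    exact inv_mem (h3 c hc u hu)
  have h5 : Q ≤ stabOf θ (θ y⁻¹ w1) := by
    have h6 := Helper30.commutator_sup_centralizer (A := A) (K := Q)
      (by rw [normalizer_eq_top]; exact le_top)
      (Nat.Coprime.coprime_dvd_right (card_dvd_of_le h.QH) h.cop)
      (Or.inr (Helper30.isSolvable_of_le h.QH h.solH))
    have h7 : Q ⊓ centralizer (A : Set Γ) = ⊥ := by
      rw [eq_bot_iff]
      intro u hu
      rw [mem_bot]
      exact h.fixH u (h.QH hu.1) (fun c hc => mem_centralizer_iff.1 hu.2 c hc)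
    rw [h7, sup_bot_eq] at h6
    rw [← h6]
    exact h4
  have h6 : ∀ u ∈ Q, θ u w1 = w1 := by
    intro u hu
    have hu' : y⁻¹ * u * y ∈ Q := by simpa using hQn.conj_mem u hu y⁻¹
    have h7 : θ (y⁻¹ * u * y) (θ y⁻¹ w1) = θ y⁻¹ w1 := h5 hu'
    have h8 : u = y * (y⁻¹ * u * y) * y⁻¹ := by group
    rw [h8, map_mul, map_mul, MulAut.mul_apply, MulAut.mul_apply, h7, theta_apply_inv]
  exact hw1 (fix_inf_cmV θ (h.cop_le (inf_le_left.trans hZQ)) hw1W (fun k hk => h6 k (hZQ hk.1)))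

theorem top_stab_wa {a g : Γ} {w : V} (ha : a ∈ A) (ha1 : a ≠ 1)
    (hw : w ∈ cmV θ ((Q ⊓ centralizer (Q : Set Γ)) ⊓ centralizer {a})) :
    θ g w ∈ cmV θ ((Q ⊓ centralizer (Q : Set Γ)) ⊓ centralizer {a}) := by
  haveI := h.Hn
  have hg : g ∈ H ⊔ A := by rw [h.sup]; exact mem_top g
  obtain ⟨x, hx, c, hc, rfl⟩ := Helper30.mem_sup_normal_left.1 hg
  rw [map_mul, MulAut.mul_apply]
  exact h.H_stab_wa ha ha1 hx (h.A_stab_wa ha hc hw)

/-- Some `a ∈ A^#` centralizes `Q` (or `H = 1`). -/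
theorem exists_centralizing : (∀ x ∈ H, x = 1) ∨ ∃ a ∈ A, a ≠ 1 ∧ ∀ u ∈ Q, a * u = u * a := by
  by_cases hall : ∀ a ∈ A, a ≠ 1 → cmV θ ((Q ⊓ centralizer (Q : Set Γ)) ⊓ centralizer {a}) = ⊥
  · left
    have hZn := h.Zn
    have h1 : ∀ v : V, v = 1 := by
      intro v
      apply h.fixZ
      have h2 : Q ⊓ centralizer (Q : Set Γ) ≤ stabOf θ v := by
        apply h.gen_le (inf_le_left.trans h.QH) (by rw [normalizer_eq_top]; exact le_top)
        intro b hb hb1 z hz
        have h3 := mem_cmV_of θ hz v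
        rw [hall b hb hb1, mem_bot] at h3
        exact (inv_mul_eq_one.1 h3).symm
      exact fun z hz => h2 hz
    intro x hx
    apply h.faith x hx
    intro v
    rw [h1 v, map_one]
  · right
    push Not at hall
    obtain ⟨a, ha, ha1, hne⟩ := hall
    have htop := (h.irr _ (fun g w hw => h.top_stab_wa (g := g) ha ha1 hw)).resolve_left hne
    refine ⟨a, ha, ha1, ?_⟩
    intro u hu
    have h1 : a * u * a⁻¹ * u⁻¹ = 1 := by
      apply h.faith _ (h.QH (mul_mem (h.Qn.conj_mem u hu a) (inv_mem hu)))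
      intro v
      rw [map_mul, MulAut.mul_apply, h.a_agree ha ha1 hu (by rw [htop]; exact mem_top _),
        theta_apply_inv]
    calc a * u = (a * u * a⁻¹ * u⁻¹) * (u * a) := by group
      _ = u * a := by rw [h1, one_mul]

/-- **The claim**: an `A`-invariant `s`-subgroup of `H`, `s ≠ q`, centralizes `Q`. -/
theorem centralizes (S : Subgroup Γ) (s : ℕ) [hs : Fact s.Prime] (hsq : s ≠ q) (hS : IsPGroup s S)
    (hSH : S ≤ H) (hAS : A ≤ normalizer (S : Set Γ)) : ∀ x ∈ S, ∀ u ∈ Q, x * u = u * x := by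
  haveI : Fact q.Prime := ⟨h.hq⟩
  have hQn := h.Qn
  rcases h.exists_centralizing with h1 | ⟨a, ha, ha1, hau⟩
  · intro x hx u _
    rw [h1 x (hSH hx)]; simp
  obtain ⟨b, hb, hb'⟩ := exists_not_mem_zpowers h.hp h.exp h.card ha
  have haC : a ∈ centralizer (Q : Set Γ) := by
    rw [mem_centralizer_iff]
    intro u hu
    exact (hau u hu).symm
  have hzC : zpowers a ≤ centralizer (Q : Set Γ) := zpowers_le.2 haC
  have hzA : zpowers a ≤ A := zpowers_le.2 ha
  have key : ∀ k ∈ S ⊓ centralizer {a}, ∀ u ∈ Q, k * u = u * k := by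
    apply frob_centralizes Q (S ⊓ centralizer {a}) b p q h.hp h.hpq (h.exp b hb) h.Qq
    · rw [normalizer_eq_top]; exact le_top
    · rw [normalizer_eq_top]; exact mem_top _
    · intro k hk
      refine mem_inf.2 ⟨(mem_normalizer_iff.1 (hAS hb) k).1 hk.1, mem_centralizer_singleton_iff.2 ?_⟩
      have h1 : Commute k a := mem_centralizer_singleton_iff.1 hk.2
      have h2 : Commute b a := h.comm b hb a ha
      exact ((h2.mul_left h1).mul_left h2.inv_left)
    · intro k hk hbk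
      apply h.fixH2 ha ha1 hb hb' (hSH hk.1)
      · exact (mem_centralizer_singleton_iff.1 hk.2).symm
      · exact mul_inv_eq_iff_eq_mul.1 hbk
    · intro u hu hbu
      exact h.fixH2 ha ha1 hb hb' (h.QH hu) (hau u hu) (mul_inv_eq_iff_eq_mul.1 hbu)
    · exact IsPGroup.coprime_card_of_ne s q hsq _ _ (hS.to_le inf_le_left) h.Qq
  intro x hx u hu
  obtain ⟨m, hm, c, hc, rfl⟩ := Helper30.exists_commutator_mul_centralizer (A := zpowers a) (K := S)
    (hzA.trans hAS)
    (Nat.Coprime.coprime_dvd_left (card_dvd_of_le hzA)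
      (Nat.Coprime.coprime_dvd_right (card_dvd_of_le hSH) h.cop))
    (Or.inl inferInstance) hx
  have hmC : m ∈ centralizer (Q : Set Γ) := by
    have h2 : ⁅S, zpowers a⁆ ≤ centralizer (Q : Set Γ) := by
      rw [commutator_le]
      intro y _ c hc
      have h3 : ⁅y, c⁆ = (y * c * y⁻¹) * c⁻¹ := by rw [commutatorElement_def]
      rw [h3]
      haveI : (centralizer (Q : Set Γ)).Normal := normal_centralizer
      exact mul_mem (Normal.conj_mem inferInstance c (hzC hc) y) (inv_mem (hzC hc))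
    exact h2 hm
  have hcK : c ∈ S ⊓ centralizer {a} :=
    mem_inf.2 ⟨hc.1, mem_centralizer_singleton_iff.2 (mem_centralizer_iff.1 hc.2 a (mem_zpowers a)).symm⟩
  have h3 : m * u = u * m := (mem_centralizer_iff.1 hmC u hu).symm
  have h4 := key c hcK u hu
  rw [mul_assoc, h4, ← mul_assoc, h3, mul_assoc]

end WardQ

/-- fixed points of a normal subgroup form an invariant subgroup -/
theorem fixed_invariant (θ : Γ →* MulAut V) {K : Subgroup Γ} (hK : K.Normal) (g : Γ) (w : V)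
    (hw : w ∈ Helper90.fixedSub (K.map θ)) : θ g w ∈ Helper90.fixedSub (K.map θ) := by
  rintro _ ⟨k, hk, rfl⟩
  have h1 : g⁻¹ * k * g ∈ K := by simpa using hK.conj_mem k hk g⁻¹
  have h2 : θ (g⁻¹ * k * g) w = w := hw _ (mem_map_of_mem θ h1)
  have h3 : k * g = g * (g⁻¹ * k * g) := by group
  rw [← MulAut.mul_apply, ← map_mul, h3, map_mul, MulAut.mul_apply, h2]

/-- an `r`-group acting on a nontrivial `r`-group has a nontrivial fixed point -/
theorem exists_fixed_of_pgroup (θ : Γ →* MulAut V) {r : ℕ} [hr : Fact r.Prime] (pV : IsPGroup r V)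
    [Nontrivial V] {N : Subgroup Γ} (hN : IsPGroup r N) : ∃ v : V, v ≠ 1 ∧ ∀ n ∈ N, θ n v = v := by
  letI : MulAction N V := MulAction.compHom V (θ.comp N.subtype)
  have hdvd : r ∣ Nat.card V := by
    obtain ⟨k, hk⟩ := IsPGroup.iff_card.mp pV
    rw [hk]
    apply dvd_pow_self
    rintro rfl
    rw [pow_zero] at hk
    have := Finite.one_lt_card (α := V)
    omega
  have h1 : (1 : V) ∈ MulAction.fixedPoints N V := by
    intro n
    change θ n 1 = 1
    exact map_one _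
  obtain ⟨b, hb, hb1⟩ := hN.exists_fixed_point_of_prime_dvd_card_of_fixed_point V hdvd h1
  refine ⟨b, hb1.symm, ?_⟩
  intro n hn
  exact hb ⟨n, hn⟩

/-- **Ward's theorem, module form.** -/
theorem ward_key (θ : Γ →* MulAut V) (H A : Subgroup Γ) (p r : ℕ) (hp : p.Prime) (hr : r.Prime)
    (Hn : H.Normal) (sup : H ⊔ A = ⊤) (comm : ∀ a ∈ A, ∀ b ∈ A, a * b = b * a)
    (exp : ∀ a ∈ A, a ^ p = 1) (card : Nat.card A = p ^ 2)
    (cop : (Nat.card A).Coprime (Nat.card H)) (solH : Group.IsSolvable H)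
    (fixH : ∀ x ∈ H, (∀ a ∈ A, a * x = x * a) → x = 1)
    (fixV : ∀ v : V, (∀ a ∈ A, θ a v = v) → v = 1)
    (faith : ∀ x ∈ H, (∀ v, θ x v = v) → x = 1)
    (irr : ∀ W : Subgroup V, (∀ g : Γ, ∀ w ∈ W, θ g w ∈ W) → W = ⊥ ∨ W = ⊤)
    (pV : IsPGroup r V) : ∃ n, H.lowerCentralSeries n = ⊥ := by
  haveI : Fact p.Prime := ⟨hp⟩
  haveI : Fact r.Prime := ⟨hr⟩
  have hindex : H.index = p ^ 2 := by
    have h1 := Helper30.card_sup_eq_mul H A (disjoint_of_coprime_natCard cop.symm).eq_bot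
    rw [sup, card_top, card] at h1
    have h2 := H.card_mul_index
    rw [h1] at h2
    exact Nat.eq_of_mul_eq_mul_left Nat.card_pos h2
  have hpH : ¬ p ∣ Nat.card H := by
    intro hd
    rw [card] at cop
    have h1 : p ∣ Nat.gcd (p ^ 2) (Nat.card H) := Nat.dvd_gcd (dvd_pow_self p two_ne_zero) hd
    rw [cop] at h1
    exact hp.one_lt.ne' (Nat.dvd_one.1 h1)
  -- a normal subgroup of `Γ` acting trivially and contained in `H` is trivial
  have htriv : ∀ K : Subgroup Γ, K.Normal → K ≤ H → K ≠ ⊥ → Helper90.fixedSub (K.map θ) = ⊥ := by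
    intro K hK hKH hne
    refine (irr _ (fun g w hw => fixed_invariant θ hK g w hw)).resolve_right ?_
    intro htop
    apply hne
    rw [eq_bot_iff]
    intro k hk
    rw [mem_bot]
    apply faith k (hKH hk)
    intro v
    have : v ∈ Helper90.fixedSub (K.map θ) := by rw [htop]; exact mem_top v
    exact this _ (mem_map_of_mem θ hk)
  obtain ⟨𝒮, h𝒮⟩ : ∃ 𝒮 : Set (Subgroup Γ),
      𝒮 = {N : Subgroup Γ | N.Normal ∧ ∃ q : ℕ, q.Prime ∧ q ≠ p ∧ IsPGroup q ↥N} := ⟨_, rfl⟩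
  have h𝒮H : ∀ N ∈ 𝒮, N ≤ H := by
    intro N hN
    rw [h𝒮] at hN
    obtain ⟨_, q, hq, hqp, hNq⟩ := hN
    haveI : Fact q.Prime := ⟨hq⟩
    rw [← relIndex_eq_one]
    have h1 : H.relIndex N ∣ p ^ 2 := hindex ▸ relIndex_dvd_index_of_normal H N
    obtain ⟨k, hk⟩ := IsPGroup.iff_card.mp hNq
    have h2 : H.relIndex N ∣ q ^ k := hk ▸ relIndex_dvd_card H N
    exact Nat.eq_one_of_dvd_coprimes
      (Nat.Coprime.pow 2 k ((Nat.coprime_primes hp hq).2 hqp.symm)) h1 h2
  -- the claim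
  have hclaim : ∀ N : Subgroup Γ, N ∈ 𝒮 → ∀ q : ℕ, q.Prime → IsPGroup q ↥N → q ≠ p →
      ∀ (S : Subgroup Γ) (s : ℕ), s.Prime →
      s ≠ q → IsPGroup s ↥S → S ≤ H → A ≤ normalizer (S : Set Γ) → N ≤ centralizer (S : Set Γ) := by
    intro N hN q hq hNq hqp S s hs hsq hS hSH hAS
    have hNH := h𝒮H N hN
    have hNn : N.Normal := by rw [h𝒮] at hN; exact hN.1
    haveI : Fact q.Prime := ⟨hq⟩
    haveI : Fact s.Prime := ⟨hs⟩
    by_cases hNbot : N = ⊥
    · rw [hNbot]; exact bot_le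
    have hfixN := htriv N hNn hNH hNbot
    have hVnt : Nontrivial V := by
      by_contra hcon
      rw [not_nontrivial_iff_subsingleton] at hcon
      apply hNbot
      rw [eq_bot_iff]
      intro k hk
      rw [mem_bot]
      exact faith k (hNH hk) (fun v => Subsingleton.elim _ _)
    have hqr : q ≠ r := by
      rintro rfl
      obtain ⟨v, hv1, hv⟩ := exists_fixed_of_pgroup θ pV hNq
      apply hv1
      have : v ∈ Helper90.fixedSub (N.map θ) := by
        rintro _ ⟨n, hn, rfl⟩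
        exact hv n hn
      rw [hfixN] at this
      exact mem_bot.1 this
    have hZn : (N ⊓ centralizer (N : Set Γ)).Normal := inferInstance
    have hZne : N ⊓ centralizer (N : Set Γ) ≠ ⊥ := by
      haveI : Nontrivial N := (nontrivial_iff_ne_bot N).2 hNbot
      haveI : Nontrivial (center N) := hNq.center_nontrivial
      obtain ⟨⟨z, hz⟩, hz1⟩ := exists_ne (1 : center N)
      intro hbot
      apply hz1
      have h1 : (z : Γ) ∈ N ⊓ centralizer (N : Set Γ) := by
        refine mem_inf.2 ⟨z.2, ?_⟩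
        rw [mem_centralizer_iff]
        intro n hn
        have := (mem_center_iff.1 hz) ⟨n, hn⟩
        exact congrArg Subtype.val this
      rw [hbot, mem_bot] at h1
      exact Subtype.ext (Subtype.ext h1)
    have hW : WardQ θ H A N p q :=
      { hp := hp, hq := hq, hpq := hqp.symm, Hn := Hn, sup := sup, comm := comm, exp := exp,
        card := card, cop := cop, solH := solH, fixH := fixH, fixV := fixV, faith := faith,
        irr := irr, Qn := hNn, QH := hNH, Qq := hNq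
        copQV := by
          obtain ⟨i, hi⟩ := IsPGroup.iff_card.mp hNq
          obtain ⟨j, hj⟩ := IsPGroup.iff_card.mp pV
          rw [hi, hj]
          exact Nat.Coprime.pow i j ((Nat.coprime_primes hq hr).2 hqr)
        fixZ := by
          intro v hv
          have h1 := htriv _ hZn (inf_le_left.trans hNH) hZne
          have h2 : v ∈ Helper90.fixedSub ((N ⊓ centralizer (N : Set Γ)).map θ) := by
            rintro _ ⟨z, hz, rfl⟩
            exact hv z hz
          rw [h1] at h2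
          exact mem_bot.1 h2 }
    intro n hn
    rw [mem_centralizer_iff]
    intro x hx
    exact hW.centralizes S s hsq hS hSH hAS x hx n hn
  obtain ⟨F, hF⟩ : ∃ F : Subgroup Γ, F = sSup 𝒮 := ⟨_, rfl⟩
  have hFn : F.Normal := by
    rw [hF]
    apply Subgroup.sSup_normal
    intro N hN
    rw [h𝒮] at hN
    exact hN.1
  have hFH : F ≤ H := by rw [hF]; exact sSup_le h𝒮H
  have hFeq : F = H := by
    by_contra hne
    have hHbar : H.map (QuotientGroup.mk' F) ≠ ⊥ := by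
      intro hbot
      rw [Subgroup.map_eq_bot_iff, QuotientGroup.ker_mk'] at hbot
      exact hne (le_antisymm hFH hbot)
    haveI : (H.map (QuotientGroup.mk' F)).Normal := Hn.map _ (QuotientGroup.mk'_surjective F)
    have hsolbar : Group.IsSolvable (H.map (QuotientGroup.mk' F)) :=
      Group.isSolvable_of_surjective ((QuotientGroup.mk' F).subgroupMap_surjective H)
    obtain ⟨Mb, hMbH, hMbn, hMbne, -, s, hs, hMbs⟩ :=
      Helper1.exists_normal_abelian_pgroup_le (H.map (QuotientGroup.mk' F)) hHbar hsolbar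
    haveI : Fact s.Prime := ⟨hs⟩
    obtain ⟨M, hM⟩ : ∃ M : Subgroup Γ, M = Mb.comap (QuotientGroup.mk' F) := ⟨_, rfl⟩
    have hMn : M.Normal := by rw [hM]; infer_instance
    have hFM : F ≤ M := by
      rw [hM]
      conv_lhs => rw [← QuotientGroup.ker_mk' F]
      exact MonoidHom.ker_le_comap _ _
    have hMH : M ≤ H := by
      rw [hM]
      calc Mb.comap (QuotientGroup.mk' F) ≤ (H.map (QuotientGroup.mk' F)).comap (QuotientGroup.mk' F) :=
            comap_mono hMbH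
        _ = H := by rw [comap_map_eq, QuotientGroup.ker_mk', sup_eq_left.2 hFH]
    have hrel : F.relIndex M = Nat.card Mb := by rw [hM]; exact Helper14.relIndex_comap_mk' F Mb
    obtain ⟨k, hk⟩ := IsPGroup.iff_card.mp hMbs
    have hk0 : k ≠ 0 := by
      rintro rfl
      rw [pow_zero, card_eq_one] at hk
      exact hMbne hk
    have hsp : s ≠ p := by
      rintro rfl
      apply hpH
      have h1 : s ∣ F.relIndex M := by rw [hrel, hk]; exact dvd_pow_self s hk0
      exact (h1.trans (relIndex_dvd_card F M)).trans (card_dvd_of_le hMH)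
    obtain ⟨S, hS, hAS⟩ := Helper30.exists_invariant_isSylowIn (A := A) (K := M)
      (by rw [normalizer_eq_top]; exact le_top)
      (Nat.Coprime.coprime_dvd_right (card_dvd_of_le hMH) cop)
      (Or.inr (Helper30.isSolvable_of_le hMH solH)) s
    have hFS : F ≤ normalizer (S : Set Γ) := by
      rw [hF]
      apply sSup_le
      intro N hN
      have hN' := hN
      rw [h𝒮] at hN'
      obtain ⟨hNn, q, hq, hqp, hNq⟩ := hN'
      by_cases hqs : s = q
      · subst hqs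
        have h1 : N ≤ M := (le_sSup hN).trans (hF ▸ hFM)
        have h2 := hS.eq_of_le (V := S ⊔ N) (sup_le hS.le h1)
          (hS.isPGroup.to_sup_of_normal_right hNq) le_sup_left
        calc N ≤ S ⊔ N := le_sup_right
          _ = S := h2
          _ ≤ normalizer (S : Set Γ) := le_normalizer
      · exact (hclaim N hN q hq hNq hqp S s hs hqs hS.isPGroup (hS.le.trans hMH) hAS).trans
          (centralizer_le_normalizer _)
    have hMFS : M ≤ F ⊔ S := by
      rw [← relIndex_eq_one]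
      have h1 : (F ⊔ S).relIndex M ∣ s ^ k := by
        rw [← hk, ← hrel]; exact relIndex_dvd_of_le_left M le_sup_left
      have h2 : (F ⊔ S).relIndex M ∣ S.relIndex M := relIndex_dvd_of_le_left M le_sup_right
      obtain ⟨j, _, hj⟩ := (Nat.dvd_prime_pow hs).1 h1
      by_contra hne1
      have hj0 : j ≠ 0 := by
        rintro rfl
        exact hne1 (by rw [hj, pow_zero])
      exact hS.not_dvd (((dvd_pow_self s hj0).trans (hj ▸ dvd_rfl)).trans h2)
    have hMS : M ≤ normalizer (S : Set Γ) := hMFS.trans (sup_le hFS le_normalizer)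
    have hSsub : S.IsSubnormal :=
      IsSubnormal.step S M hS.le hMn.isSubnormal ((normal_subgroupOf_iff_le_normalizer hS.le).2 hMS)
    have hSF : S ≤ F := by
      have h1 := Helper28.subnormal_le_pCore hSsub hS.isPGroup
      refine h1.trans ?_
      rw [hF]
      apply le_sSup
      rw [h𝒮]
      haveI := Helper28.pCore_characteristic (G := Γ) s
      exact ⟨inferInstance, s, hs, hsp, Helper28.pCore_isPGroup s⟩
    have hMF : M ≤ F := hMFS.trans (sup_le le_rfl hSF)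
    apply hMbne
    have h1 : F.relIndex M = 1 := relIndex_eq_one.2 hMF
    rw [hrel, card_eq_one] at h1
    exact h1
  have hFfit : F ≤ Cfsg.fittingSubgroup Γ := by
    rw [hF]
    apply sSup_le
    intro N hN
    rw [h𝒮] at hN
    obtain ⟨hNn, q, hq, _, hNq⟩ := hN
    haveI : Fact q.Prime := ⟨hq⟩
    exact Helper28.le_fitting hNn hNq.isNilpotent
  obtain ⟨n, hn⟩ := (isNilpotent_iff_lowerCentralSeries _).1 (Helper28.fitting_isNilpotent (G := Γ))
  refine ⟨n, ?_⟩
  rw [eq_bot_iff, ← hn]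
  exact lowerCentralSeries_mono n (hFeq ▸ hFfit)

end ward

end Cfsg.Agent.Lib.Helper66
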