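import Mathlib
import Cfsg.Agent.Lib.Helper66.Ward
import Cfsg.Agent.Lib.Lead.Hall

set_option autoImplicit false
set_option linter.style.haveILetI false
set_option linter.unusedSectionVars false

/-!
# Ward's theorem: the induction inside an ambient group `X = G A`
-/

namespace Cfsg.Agent.Lib.Helper66

open Subgroup
open scoped commutatorElement

universe u

/-- the hypotheses of Ward's theorem, internal form -/
structure WardData {X : Type u} [Group X] (G A : Subgroup X) (p : ℕ) : Prop where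
  hp : p.Prime
  Gn : G.Normal
  sup : G ⊔ A = ⊤
  comm : ∀ a ∈ A, ∀ b ∈ A, a * b = b * a
  exp : ∀ a ∈ A, a ^ p = 1
  card : Nat.card A = p ^ 2
  cop : (Nat.card A).Coprime (Nat.card G)
  sol : Group.IsSolvable G
  fix : ∀ x ∈ G, (∀ a ∈ A, a * x = x * a) → x = 1

namespace WardData

variable {X : Type u} [Group X] [Finite X] {G A : Subgroup X} {p : ℕ}

theorem quot (h : WardData G A p) (K : Subgroup X) [K.Normal] (hK : K ≤ G) :
    WardData (G.map (QuotientGroup.mk' K)) (A.map (QuotientGroup.mk' K)) p := by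
  have hcA : Nat.card (A.map (QuotientGroup.mk' K)) = Nat.card A :=
    Lead.card_map_mk'_of_coprime K A
      (Nat.Coprime.coprime_dvd_left (card_dvd_of_le hK) h.cop.symm)
  refine
    { hp := h.hp
      Gn := h.Gn.map _ (QuotientGroup.mk'_surjective K)
      sup := by rw [← Subgroup.map_sup, h.sup, map_top_of_surjective _ (QuotientGroup.mk'_surjective K)]
      comm := ?_
      exp := ?_
      card := hcA.trans h.card
      cop := by
        rw [hcA]
        exact Nat.Coprime.coprime_dvd_right (card_map_dvd G _) h.cop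
      sol := ?_
      fix := ?_ }
  · rintro _ ⟨a, ha, rfl⟩ _ ⟨b, hb, rfl⟩
    rw [← map_mul, ← map_mul, h.comm a ha b hb]
  · rintro _ ⟨a, ha, rfl⟩
    rw [← map_pow, h.exp a ha, map_one]
  · haveI := h.sol
    exact Group.isSolvable_of_surjective ((QuotientGroup.mk' K).subgroupMap_surjective G)
  · rintro _ ⟨x, hx, rfl⟩ hfix
    haveI := h.Gn
    obtain ⟨n, hn, hc⟩ := Helper30.exists_mem_centralizer_of_coset (A := A) (K := G) (N := K)
      (by rw [normalizer_eq_top]; exact le_top) h.cop (Or.inr h.sol) hK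
      (by rw [normalizer_eq_top]; exact le_top) hx (by
        intro a ha
        have h1 := hfix _ (mem_map_of_mem _ ha)
        rw [← QuotientGroup.ker_mk' K, MonoidHom.mem_ker, map_mul, map_mul, map_mul, map_inv,
          map_inv, mul_assoc ((QuotientGroup.mk' K) x)⁻¹, h1]
        group)
    have h2 : x * n = 1 := by
      apply h.fix _ (mul_mem hx (hK hn))
      intro a ha
      exact (mem_centralizer_iff.1 hc a ha)
    have h3 : x = n⁻¹ := eq_inv_of_mul_eq_one_left h2
    rw [h3, map_inv, inv_eq_one]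
    exact (QuotientGroup.eq_one_iff n).2 hn

/-- the action on a minimal normal subgroup -/
theorem lcs_le_centralizer (h : WardData G A p) (N : Subgroup X) [hNn : N.Normal] (hNG : N ≤ G)
    (hNc : ∀ x ∈ N, ∀ y ∈ N, x * y = y * x) {r : ℕ} (hr : r.Prime) (hNr : IsPGroup r N)
    (hmin : ∀ L : Subgroup X, L.Normal → L ≤ N → L = ⊥ ∨ L = N) :
    ∃ k, G.lowerCentralSeries k ≤ centralizer (N : Set X) := by
  haveI := h.Gn
  haveI : (centralizer (N : Set X)).Normal := normal_centralizer
  obtain ⟨C, hC⟩ : ∃ C : Subgroup X, C = G ⊓ centralizer (N : Set X) := ⟨_, rfl⟩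
  haveI hCn : C.Normal := by rw [hC]; infer_instance
  have hCG : C ≤ G := by rw [hC]; exact inf_le_left
  letI : CommGroup N :=
    { (inferInstance : Group N) with
      mul_comm := fun x y => Subtype.ext (hNc x x.2 y y.2) }
  have hker : ∀ c ∈ C, (MulAut.conjNormal c : MulAut N) = 1 := by
    intro c hc
    ext v
    rw [MulAut.conjNormal_apply, MulAut.one_apply]
    rw [hC] at hc
    have := mem_centralizer_iff.1 hc.2 v v.2
    rw [← this, mul_inv_cancel_right]
  obtain ⟨θ, hθ⟩ : ∃ θ : X ⧸ C →* MulAut N, ∀ (x : X) (v : N),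
      ((θ (QuotientGroup.mk' C x) v : N) : X) = x * v * x⁻¹ :=
    ⟨QuotientGroup.lift C (MulAut.conjNormal : X →* MulAut N) hker, fun x v => by
      change (((MulAut.conjNormal x : MulAut N) v : N) : X) = _
      rw [MulAut.conjNormal_apply]⟩
  have hq := h.quot C hCG
  obtain ⟨n, hn⟩ := ward_key θ (G.map (QuotientGroup.mk' C)) (A.map (QuotientGroup.mk' C)) p r
    h.hp hr hq.Gn hq.sup hq.comm hq.exp hq.card hq.cop hq.sol hq.fix
    (by
      intro v hv
      apply Subtype.ext
      apply h.fix v (hNG v.2)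
      intro a ha
      have h1 := hv _ (mem_map_of_mem _ ha)
      have h2 := hθ a v
      rw [h1] at h2
      exact (mul_inv_eq_iff_eq_mul.1 h2.symm))
    (by
      rintro _ ⟨x, hx, rfl⟩ hv
      apply (QuotientGroup.eq_one_iff x).2
      rw [hC]
      refine mem_inf.2 ⟨hx, ?_⟩
      rw [mem_centralizer_iff]
      intro v hvN
      have h2 := hθ x ⟨v, hvN⟩
      rw [hv] at h2
      exact (mul_inv_eq_iff_eq_mul.1 h2.symm).symm)
    (by
      intro W hW
      have hn : (W.map N.subtype).Normal := by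
        constructor
        rintro _ ⟨w, hw, rfl⟩ g
        refine ⟨θ (QuotientGroup.mk' C g) w, hW _ w hw, ?_⟩
        exact hθ g w
      rcases hmin _ hn (map_subtype_le W) with h1 | h1
      · left
        exact (map_eq_bot_iff_of_injective W N.subtype_injective).1 h1
      · right
        rw [eq_top_iff]
        intro v _
        have h2 : (v : X) ∈ W.map N.subtype := by rw [h1]; exact v.2
        obtain ⟨w, hw, hwv⟩ := h2
        have : w = v := Subtype.ext hwv
        exact this ▸ hw)
    hNr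
  refine ⟨n, ?_⟩
  rw [← map_lowerCentralSeries, Subgroup.map_eq_bot_iff, QuotientGroup.ker_mk', hC] at hn
  exact hn.trans inf_le_right

end WardData

/-- **Ward's theorem**, internal form. -/
theorem ward_ambient : ∀ (n : ℕ) (X : Type u) [Group X] [Finite X] (G A : Subgroup X) (p : ℕ),
    WardData G A p → Nat.card G = n →
    ∃ D : Subgroup X, D ≤ G ∧ D.Normal ∧ (∃ k, D.lowerCentralSeries k = ⊥) ∧
      ∃ k, G.lowerCentralSeries k ≤ D := by
  intro n
  induction n using Nat.strong_induction_on with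
  | _ n ih =>
  intro X _ _ G A p h hcard
  haveI := h.Gn
  by_cases hG : G = ⊥
  · exact ⟨⊥, bot_le, inferInstance, ⟨0, rfl⟩, ⟨0, by rw [Subgroup.lowerCentralSeries_zero, hG]⟩⟩
  obtain ⟨N, ⟨hNn, hNb, hNG⟩, hmin⟩ := exists_minimal_of_wellFoundedLT
    (fun L : Subgroup X => L.Normal ∧ L ≠ ⊥ ∧ L ≤ G) ⟨G, inferInstance, hG, le_rfl⟩
  haveI := hNn
  have hmin' : ∀ L : Subgroup X, L.Normal → L ≤ N → L = ⊥ ∨ L = N := by
    intro L hL hLN
    by_cases hb : L = ⊥
    · exact Or.inl hb
    · exact Or.inr (le_antisymm hLN (hmin ⟨hL, hb, hLN.trans hNG⟩ hLN))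
  obtain ⟨M, hMN, hMn, hMb, hMc, r, hr, hMr⟩ :=
    Helper1.exists_normal_abelian_pgroup_le N hNb (Helper30.isSolvable_of_le hNG h.sol)
  have hMeq : M = N := (hmin' M hMn hMN).resolve_left hMb
  subst hMeq
  -- the centralizer
  obtain ⟨k₃, hk₃⟩ := h.lcs_le_centralizer M hNG
    (fun x hx y hy => congrArg Subtype.val (hMc.is_comm.comm ⟨x, hx⟩ ⟨y, hy⟩)) hr hMr hmin'
  -- the quotient
  have hq := h.quot M hNG
  have hlt : Nat.card (G.map (QuotientGroup.mk' M)) < n := by
    rw [Helper14.card_map_mk', ← hcard]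
    have h1 : Nat.card M * M.relIndex G = Nat.card G := by
      have := relIndex_mul_relIndex ⊥ M G bot_le hNG
      rwa [relIndex_bot_left, relIndex_bot_left] at this
    have h2 : 1 < Nat.card M := by
      rw [Subgroup.one_lt_card_iff_ne_bot]; exact hNb
    have h3 : 0 < M.relIndex G := Nat.pos_of_ne_zero (by
      intro h0
      rw [h0, mul_zero] at h1
      exact (Nat.card_pos (α := G)).ne h1)
    nlinarith
  obtain ⟨Db, hDbG, hDbn, ⟨k₁, hk₁⟩, ⟨k₂, hk₂⟩⟩ := ih _ hlt (X ⧸ M) _ _ p hq rfl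
  obtain ⟨D₁, hD₁⟩ : ∃ D₁ : Subgroup X, D₁ = Db.comap (QuotientGroup.mk' M) := ⟨_, rfl⟩
  haveI hD₁n : D₁.Normal := by rw [hD₁]; infer_instance
  have hD₁G : D₁ ≤ G := by
    rw [hD₁]
    calc Db.comap (QuotientGroup.mk' M)
        ≤ (G.map (QuotientGroup.mk' M)).comap (QuotientGroup.mk' M) := comap_mono hDbG
      _ = G := by rw [comap_map_eq, QuotientGroup.ker_mk', sup_eq_left.2 hNG]
  have hD₁lcs : D₁.lowerCentralSeries k₁ ≤ M := by
    have h1 : (D₁.lowerCentralSeries k₁).map (QuotientGroup.mk' M) = ⊥ := by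
      rw [map_lowerCentralSeries, hD₁, map_comap_eq_self_of_surjective
        (QuotientGroup.mk'_surjective M), hk₁]
    rwa [Subgroup.map_eq_bot_iff, QuotientGroup.ker_mk'] at h1
  have hGD₁ : G.lowerCentralSeries k₂ ≤ D₁ := by
    rw [hD₁, ← map_le_iff_le_comap, map_lowerCentralSeries]
    exact hk₂
  haveI : (centralizer (M : Set X)).Normal := normal_centralizer
  refine ⟨D₁ ⊓ centralizer (M : Set X), inf_le_left.trans hD₁G, inferInstance, ⟨k₁ + 1, ?_⟩,
    ⟨max k₂ k₃, ?_⟩⟩
  · rw [Subgroup.lowerCentralSeries_succ, eq_bot_iff]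
    calc ⁅(D₁ ⊓ centralizer (M : Set X)).lowerCentralSeries k₁, D₁ ⊓ centralizer (M : Set X)⁆
        ≤ ⁅M, centralizer (M : Set X)⁆ :=
          commutator_mono ((lowerCentralSeries_mono k₁ inf_le_left).trans hD₁lcs) inf_le_right
      _ = ⊥ := by
          rw [commutator_comm, commutator_eq_bot_iff_le_centralizer]
  · exact le_inf ((Subgroup.lowerCentralSeries_antitone G (le_max_left _ _)).trans hGD₁)
      ((Subgroup.lowerCentralSeries_antitone G (le_max_right _ _)).trans hk₃)

end Cfsg.Agent.Lib.Helper66
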